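import Cfsg.Agent.Lib.Helper14.CTI.Defs

set_option autoImplicit false

namespace Cfsg.Agent.Lib.Helper14.CTI

variable {X : Type*} [Fintype X]

/-! RUNG BAS: bilinearity of `ip`, vectors of norm 3 and 1. -/

theorem ip_comm (u v : X → ℤ) : ip u v = ip v u := by
  unfold ip; exact Finset.sum_congr rfl fun x _ => mul_comm _ _
theorem ip_add_left (u v w : X → ℤ) : ip (u + v) w = ip u w + ip v w := by
  unfold ip; rw [← Finset.sum_add_distrib]
  exact Finset.sum_congr rfl fun x _ => by rw [Pi.add_apply, add_mul]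
theorem ip_add_right (u v w : X → ℤ) : ip u (v + w) = ip u v + ip u w := by
  rw [ip_comm, ip_add_left, ip_comm v, ip_comm w]
theorem ip_sub_left (u v w : X → ℤ) : ip (u - v) w = ip u w - ip v w := by
  unfold ip; rw [← Finset.sum_sub_distrib]
  exact Finset.sum_congr rfl fun x _ => by rw [Pi.sub_apply, sub_mul]
theorem ip_sub_right (u v w : X → ℤ) : ip u (v - w) = ip u v - ip u w := by
  rw [ip_comm, ip_sub_left, ip_comm v, ip_comm w]
theorem ip_neg_left (u v : X → ℤ) : ip (-u) v = -ip u v := by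
  unfold ip; rw [← Finset.sum_neg_distrib]
  exact Finset.sum_congr rfl fun x _ => by rw [Pi.neg_apply, neg_mul]
theorem ip_neg_right (u v : X → ℤ) : ip u (-v) = -ip u v := by
  rw [ip_comm, ip_neg_left, ip_comm v]
theorem ip_single_left [DecidableEq X] (x : X) (c : ℤ) (v : X → ℤ) :
    ip (Pi.single x c) v = c * v x := by
  unfold ip
  rw [Finset.sum_eq_single x]
  · rw [Pi.single_eq_same]
  · intro y _ hy; rw [Pi.single_eq_of_ne hy, zero_mul]
  · intro h; exact absurd (Finset.mem_univ x) h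
theorem ip_single_right [DecidableEq X] (x : X) (c : ℤ) (v : X → ℤ) :
    ip v (Pi.single x c) = v x * c := by
  rw [ip_comm, ip_single_left, mul_comm]

private theorem bas_sum_le (u : X → ℤ) (S : Finset X) : ∑ x ∈ S, u x * u x ≤ ip u u := by
  unfold ip
  exact Finset.sum_le_univ_sum_of_nonneg fun x => mul_self_nonneg _

private theorem bas_one_le {a : ℤ} (h : a ≠ 0) : 1 ≤ a * a := by
  rcases lt_or_gt_of_ne h with h | h <;> nlinarith

/-- entries of a vector of norm 3 -/
theorem val_of_norm3 {u : X → ℤ} (h : ip u u = 3) (x : X) : u x = 0 ∨ u x = 1 ∨ u x = -1 := by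
  have h1 := bas_sum_le u {x}
  rw [Finset.sum_singleton, h] at h1
  have h2 : u x ≤ 1 := by nlinarith
  have h3 : -1 ≤ u x := by nlinarith
  omega

/-- a vector of norm 3 has at most 3 nonzero entries: 4 distinct points cannot all be in the support -/
theorem norm3_no_four {u : X → ℤ} (h : ip u u = 3) {p q r s : X} (hpq : p ≠ q) (hpr : p ≠ r)
    (hps : p ≠ s) (hqr : q ≠ r) (hqs : q ≠ s) (hrs : r ≠ s) (hp : u p ≠ 0) (hq : u q ≠ 0)
    (hr : u r ≠ 0) (hs : u s ≠ 0) : False := by
  classical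
  have h1 := bas_sum_le u {p, q, r, s}
  rw [Finset.sum_insert (by simp [hpq, hpr, hps]), Finset.sum_insert (by simp [hqr, hqs]),
    Finset.sum_insert (by simp [hrs]), Finset.sum_singleton, h] at h1
  have := bas_one_le hp
  have := bas_one_le hq
  have := bas_one_le hr
  have := bas_one_le hs
  omega

/-- if `p q r` are three distinct points of the support of a vector `ℓ` of norm 3, then `ℓ` vanishes
elsewhere. -/
theorem norm3_eq_zero {ℓ : X → ℤ} (h : ip ℓ ℓ = 3) {p q r : X} (hpq : p ≠ q) (hpr : p ≠ r)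
    (hqr : q ≠ r) (hp : ℓ p ≠ 0) (hq : ℓ q ≠ 0) (hr : ℓ r ≠ 0) {x : X} (hxp : x ≠ p) (hxq : x ≠ q)
    (hxr : x ≠ r) : ℓ x = 0 := by
  by_contra hx
  exact norm3_no_four h hxp hxq hxr hpq hpr hqr hx hp hq hr

/-- ... and `ip ℓ w` is a sum of three terms -/
theorem ip_norm3 {ℓ : X → ℤ} (h : ip ℓ ℓ = 3) {p q r : X} (hpq : p ≠ q) (hpr : p ≠ r)
    (hqr : q ≠ r) (hp : ℓ p ≠ 0) (hq : ℓ q ≠ 0) (hr : ℓ r ≠ 0) (w : X → ℤ) :
    ip ℓ w = ℓ p * w p + ℓ q * w q + ℓ r * w r := by
  classical
  have h1 : ∑ x ∈ ({p, q, r} : Finset X), ℓ x * w x = ip ℓ w := by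
    unfold ip
    apply Finset.sum_subset (Finset.subset_univ _)
    intro x _ hx
    simp only [Finset.mem_insert, Finset.mem_singleton, not_or] at hx
    rw [norm3_eq_zero h hpq hpr hqr hp hq hr hx.1 hx.2.1 hx.2.2, zero_mul]
  rw [← h1, Finset.sum_insert (by simp [hpq, hpr]), Finset.sum_insert (by simp [hqr]),
    Finset.sum_singleton, add_assoc]

/-- the third point of the support -/
theorem norm3_third {ℓ : X → ℤ} (h : ip ℓ ℓ = 3) {p q : X} (hpq : p ≠ q) (hp : ℓ p ≠ 0)
    (hq : ℓ q ≠ 0) : ∃ r, r ≠ p ∧ r ≠ q ∧ ℓ r ≠ 0 := by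
  classical
  by_contra hcon
  push Not at hcon
  have h1 : ∑ x ∈ ({p, q} : Finset X), ℓ x * ℓ x = ip ℓ ℓ := by
    unfold ip
    apply Finset.sum_subset (Finset.subset_univ _)
    intro x _ hx
    simp only [Finset.mem_insert, Finset.mem_singleton, not_or] at hx
    rw [hcon x hx.1 hx.2, zero_mul]
  rw [Finset.sum_insert (by simp [hpq]), Finset.sum_singleton, h] at h1
  rcases val_of_norm3 h p with h2 | h2 | h2 <;> rcases val_of_norm3 h q with h3 | h3 | h3 <;>
    rw [h2, h3] at h1 <;> omega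

/-- a vector of norm 1 is `± e_x` -/
theorem norm1 [DecidableEq X] {u : X → ℤ} (h : ip u u = 1) :
    ∃ x, (u = Pi.single x 1 ∨ u = Pi.single x (-1)) := by
  have hex : ∃ x, u x ≠ 0 := by
    by_contra hcon
    push Not at hcon
    have : ip u u = 0 := by
      unfold ip
      exact Finset.sum_eq_zero fun x _ => by rw [hcon x, zero_mul]
    omega
  obtain ⟨x, hx⟩ := hex
  have hy : ∀ y, y ≠ x → u y = 0 := by
    intro y hyx
    by_contra hy
    have h1 := bas_sum_le u {y, x}
    rw [Finset.sum_insert (by simp [hyx]), Finset.sum_singleton, h] at h1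
    have := bas_one_le hx
    have := bas_one_le hy
    omega
  have h1 := bas_sum_le u {x}
  rw [Finset.sum_singleton, h] at h1
  have h2 : u x ≤ 1 := by nlinarith
  have h3 : -1 ≤ u x := by nlinarith
  have h4 : u = Pi.single x (u x) := by
    funext y
    by_cases hyx : y = x
    · rw [hyx, Pi.single_eq_same]
    · rw [Pi.single_eq_of_ne hyx, hy y hyx]
  refine ⟨x, ?_⟩
  have h5 : u x = 1 ∨ u x = -1 := by omega
  rcases h5 with h5 | h5
  · left; rw [h5] at h4; exact h4
  · right; rw [h5] at h4; exact h4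

end Cfsg.Agent.Lib.Helper14.CTI
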