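import Cfsg.Agent.Lib.Helper14.CTI.REAL
import Cfsg.Agent.S1505
import Cfsg.Agent.Lib.Helper19.GramRigid

set_option autoImplicit false

namespace Cfsg.Agent.Lib.Helper14.CTI

open Cfsg

universe u

variable {G : Type u} [Group G] [Fintype G] [Fintype (IrrCharacter G)] {W₁ W₂ : Subgroup G}

omit [Fintype (IrrCharacter G)] in
private theorem beta_lin (ω : Lin W₁ W₂) :
    IsGeneralizedCharacter G (indFun (W₁ ⊔ W₂) (fun w => ((ω w : ℂˣ) : ℂ))) :=
  Cfsg.Agent.Lib.Helper32.genChar_of_char (Cfsg.Agent.Lib.Helper19.isCharacter_indFun _ _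
    (Cfsg.Agent.Lib.Helper20.isCharacter_of_isIrrCharacter (Cfsg.Agent.Lib.Helper83.isIrr_of_hom ω)))

omit [Fintype (IrrCharacter G)] in
private theorem beta_sub (H : Subgroup G) (a b : H → ℂ) :
    indFun H (a - b) = indFun H a - indFun H b := by
  have : a - b = a + (-1 : ℂ) • b := by rw [neg_one_smul, sub_eq_add_neg]
  rw [this, Cfsg.Agent.Lib.Helper19.indFun_add, Cfsg.Agent.Lib.Helper19.indFun_smul, neg_one_smul,
    sub_eq_add_neg]

omit [Fintype (IrrCharacter G)] in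
private theorem beta_gen (φ ψ : Lin W₁ W₂) :
    IsGeneralizedCharacter G (indFun (W₁ ⊔ W₂) (alpha φ ψ)) := by
  have h0 : alpha φ ψ = (fun _ => (1 : ℂ)) - (fun w => ((φ w : ℂˣ) : ℂ)) - (fun w => ((ψ w : ℂˣ) : ℂ))
        + (fun w => (((φ * ψ) w : ℂˣ) : ℂ)) := Cfsg.Agent.Lib.Helper32.cti_alpha_eq φ ψ
  have h1 : IsGeneralizedCharacter G (indFun (W₁ ⊔ W₂) (fun _ => (1 : ℂ))) := by
    simpa using beta_lin (1 : Lin W₁ W₂)
  rw [h0, Cfsg.Agent.Lib.Helper19.indFun_add, beta_sub, beta_sub]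
  exact Cfsg.Agent.Lib.Helper32.genChar_add (Cfsg.Agent.Lib.Helper32.genChar_sub
    (Cfsg.Agent.Lib.Helper32.genChar_sub h1 (beta_lin φ)) (beta_lin ψ)) (beta_lin (φ * ψ))

/-- RUNG BETA: the array `β i j` = coefficient vector of `Ind α_ij - 1`.
PROOF. `alpha φ ψ = 1 - φ - ψ + φψ` (`Helper32.cti_alpha_eq`), `indFun` is additive (Helper19 IndFun2 / unfold), the induced
function of a linear character is a character (`Helper19.isCharacter_indFun`, `Helper83.isIrr_of_hom`,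
`Helper20.isCharacter_of_isIrrCharacter`), so `θ_ij = indFun α_ij - 1` is a generalized character (`Helper32.genChar_*`);
`β i j` from `exists_re`. Gram: `inner_re` + `Cfsg.Agent.S1505.result` (both parts; `(1, Ind α) = conj (Ind α, 1) = 1`,
`(1,1) = 1` by `classInner_irr_self`): `(θ_ij, θ_kl) = (1 + a + b + ab) - 1 - 1 + 1`; cast injectivity `ℤ → ℂ`; `i = k ↔ i.1 = k.1`.
`β i j (prin G) = (θ_ij, 1) = 1 - 1` by `inner_re_irr`. -/
theorem exists_beta (hW : IsSelfNormalizingCyclic W₁ W₂) [DecidableEq (II W₁ W₂)]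
    [DecidableEq (JJ W₁ W₂)] :
    ∃ β : II W₁ W₂ → JJ W₁ W₂ → IrrCharacter G → ℤ,
      Arr β ∧ (∀ i j, β i j (prin G) = 0) ∧
      ∀ i j, indFun (W₁ ⊔ W₂) (alpha i.1 j.1) = (fun _ => 1) + re (β i j) := by
  have hone : IsIrrCharacter G (fun _ => (1 : ℂ)) := Cfsg.Agent.Lib.Helper83.isIrr_trivial
  have hex : ∀ (i : II W₁ W₂) (j : JJ W₁ W₂), ∃ c : IrrCharacter G → ℤ,
      re c = indFun (W₁ ⊔ W₂) (alpha i.1 j.1) - (fun _ => (1 : ℂ)) := fun i j =>
    exists_re (Cfsg.Agent.Lib.Helper32.genChar_sub (beta_gen i.1 j.1)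
      (Cfsg.Agent.Lib.Helper32.genChar_of_irr hone))
  choose β hβ using hex
  have hS := fun (i : II W₁ W₂) (j : JJ W₁ W₂) (k : II W₁ W₂) (l : JJ W₁ W₂) =>
    Cfsg.Agent.S1505.result W₁ W₂ hW i.1 k.1 j.1 l.1 i.2.1 k.2.1 j.2.1 l.2.1
      (fun w hw => ⟨i.2.2 w hw, k.2.2 w hw⟩) (fun w hw => ⟨j.2.2 w hw, l.2.2 w hw⟩)
  have h1 : ∀ (i : II W₁ W₂) (j : JJ W₁ W₂),
      classInner (indFun (W₁ ⊔ W₂) (alpha i.1 j.1)) (fun _ => (1 : ℂ)) = 1 := fun i j => (hS i j i j).1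
  have h1' : ∀ (i : II W₁ W₂) (j : JJ W₁ W₂),
      classInner (fun _ => (1 : ℂ)) (indFun (W₁ ⊔ W₂) (alpha i.1 j.1)) = 1 := fun i j => by
    rw [← Cfsg.Agent.Lib.Helper20.classInner_conj_symm, h1, map_one]
  have h11 : classInner (fun _ : G => (1 : ℂ)) (fun _ => (1 : ℂ)) = 1 :=
    Cfsg.Agent.Lib.Helper20.classInner_irr_self hone
  refine ⟨β, ?_, ?_, ?_⟩
  · intro i j k l
    apply Int.cast_injective (α := ℂ)
    rw [← inner_re, hβ, hβ, Cfsg.Agent.Lib.Helper20.classInner_sub_left,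
      Cfsg.Agent.Lib.Helper20.classInner_sub_right, Cfsg.Agent.Lib.Helper20.classInner_sub_right,
      h1, h1', h11]
    have h2 := (hS i j k l).2
    change classInner (indFun (W₁ ⊔ W₂) (alpha i.1 j.1)) (indFun (W₁ ⊔ W₂) (alpha k.1 l.1)) = _ at h2
    rw [h2]
    by_cases hik : i = k <;> by_cases hjl : j = l
    · subst hik; subst hjl; simp; norm_num
    · subst hik
      have : (j : Lin W₁ W₂) ≠ l := fun h => hjl (Subtype.ext h)
      simp [hjl, this]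
    · subst hjl
      have : (i : Lin W₁ W₂) ≠ k := fun h => hik (Subtype.ext h)
      simp [hik, this]
    · have h3 : (i : Lin W₁ W₂) ≠ k := fun h => hik (Subtype.ext h)
      have h4 : (j : Lin W₁ W₂) ≠ l := fun h => hjl (Subtype.ext h)
      simp [hik, hjl, h3, h4]
  · intro i j
    apply Int.cast_injective (α := ℂ)
    rw [← inner_re_irr, hβ, Cfsg.Agent.Lib.Helper20.classInner_sub_left]
    change classInner (indFun (W₁ ⊔ W₂) (alpha i.1 j.1)) (fun _ => (1 : ℂ)) -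
      classInner (fun _ : G => (1 : ℂ)) (fun _ => (1 : ℂ)) = _
    rw [h1, h11]; simp
  · intro i j
    rw [hβ]; abel

end Cfsg.Agent.Lib.Helper14.CTI
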