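import Cfsg.Agent.Lib.Helper14.CTI.SH

set_option autoImplicit false

namespace Cfsg.Agent.Lib.Helper14.CTI

variable {X : Type*} [Fintype X]

theorem Two.uniq {J : Type*} [DecidableEq J] {ℓ u : J → X → ℤ} (h : Two ℓ u) {j l : J}
    (hjl : j ≠ l) {x y : X} (hx1 : ℓ j x ≠ 0) (hx2 : ℓ l x ≠ 0) (hy1 : ℓ j y ≠ 0)
    (hy2 : ℓ l y ≠ 0) : x = y := by
  obtain ⟨z, _, _, hu⟩ := h.share hjl
  rw [hu x hx1 hx2, hu y hy1 hy2]

theorem Two.eqval {J : Type*} [DecidableEq J] {ℓ u : J → X → ℤ} (h : Two ℓ u) {j l : J}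
    (hjl : j ≠ l) {x : X} (hx1 : ℓ j x ≠ 0) (hx2 : ℓ l x ≠ 0) : ℓ l x = ℓ j x := by
  obtain ⟨z, _, hv, hu⟩ := h.share hjl
  rw [hu x hx1 hx2, hv]

theorem Two.norm {J : Type*} [DecidableEq J] {ℓ u : J → X → ℤ} (h : Two ℓ u) (j : J) :
    ip (ℓ j) (ℓ j) = 3 := by
  rw [h.ll, if_pos rfl]

theorem pm_of_norm3 {v : X → ℤ} (h : ip v v = 3) {x : X} (hx : v x ≠ 0) : v x = 1 ∨ v x = -1 :=
  (val_of_norm3 h x).resolve_left hx

/-- RUNG T2C: coordinates for "three concurrent lines + a transversal". -/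
theorem t2c {J : Type*} [DecidableEq J] {ℓ u : J → X → ℤ} (h : Two ℓ u) {j1 j2 j3 j4 : J}
    (h12 : j1 ≠ j2) (h13 : j1 ≠ j3) (h14 : j1 ≠ j4) (h23 : j2 ≠ j3) (h24 : j2 ≠ j4) (h34 : j3 ≠ j4)
    {a : X} (h1 : ℓ j1 a ≠ 0) (h2 : ℓ j2 a ≠ 0) (h3 : ℓ j3 a ≠ 0) (h4 : ℓ j4 a = 0) :
    ∃ (pt : Fin 7 → X) (σ : Fin 7 → ℤ), Function.Injective pt ∧ (∀ k, σ k = 1 ∨ σ k = -1) ∧
      (∀ w, ip (ℓ j1) w = σ 0 * w (pt 0) + σ 1 * w (pt 1) + σ 2 * w (pt 2)) ∧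
      (∀ w, ip (ℓ j2) w = σ 0 * w (pt 0) + σ 3 * w (pt 3) + σ 4 * w (pt 4)) ∧
      (∀ w, ip (ℓ j3) w = σ 0 * w (pt 0) + σ 5 * w (pt 5) + σ 6 * w (pt 6)) ∧
      (∀ w, ip (ℓ j4) w = σ 1 * w (pt 1) + σ 3 * w (pt 3) + σ 5 * w (pt 5)) := by
  obtain ⟨b, hb1, hb4v, _⟩ := h.share h14
  obtain ⟨d, hd2, hd4v, _⟩ := h.share h24
  obtain ⟨f, hf3, hf4v, _⟩ := h.share h34
  have hb4 : ℓ j4 b ≠ 0 := by rw [hb4v]; exact hb1
  have hd4 : ℓ j4 d ≠ 0 := by rw [hd4v]; exact hd2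
  have hf4 : ℓ j4 f ≠ 0 := by rw [hf4v]; exact hf3
  have hab : a ≠ b := fun e => hb4 (e ▸ h4)
  have had : a ≠ d := fun e => hd4 (e ▸ h4)
  have haf : a ≠ f := fun e => hf4 (e ▸ h4)
  have hb2 : ℓ j2 b = 0 := by
    by_contra hc; exact hab (h.uniq h12 h1 h2 hb1 hc)
  have hb3 : ℓ j3 b = 0 := by
    by_contra hc; exact hab (h.uniq h13 h1 h3 hb1 hc)
  have hd1 : ℓ j1 d = 0 := by
    by_contra hc; exact had (h.uniq h12 h1 h2 hc hd2)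
  have hd3 : ℓ j3 d = 0 := by
    by_contra hc; exact had (h.uniq h23 h2 h3 hd2 hc)
  have hf1 : ℓ j1 f = 0 := by
    by_contra hc; exact haf (h.uniq h13 h1 h3 hc hf3)
  have hf2 : ℓ j2 f = 0 := by
    by_contra hc; exact haf (h.uniq h23 h2 h3 hc hf3)
  obtain ⟨c, hca, hcb, hc1⟩ := norm3_third (h.norm j1) hab h1 hb1
  obtain ⟨e, hea, hed, he2⟩ := norm3_third (h.norm j2) had h2 hd2
  obtain ⟨y, hya, hyf, hy3⟩ := norm3_third (h.norm j3) haf h3 hf3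
  have hc2 : ℓ j2 c = 0 := by
    by_contra hc; exact hca (h.uniq h12 hc1 hc h1 h2)
  have hc3 : ℓ j3 c = 0 := by
    by_contra hc; exact hca (h.uniq h13 hc1 hc h1 h3)
  have hc4 : ℓ j4 c = 0 := by
    by_contra hc; exact hcb (h.uniq h14 hc1 hc hb1 hb4)
  have he1 : ℓ j1 e = 0 := by
    by_contra hc; exact hea (h.uniq h12 hc he2 h1 h2)
  have he3 : ℓ j3 e = 0 := by
    by_contra hc; exact hea (h.uniq h23 he2 hc h2 h3)
  have he4 : ℓ j4 e = 0 := by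
    by_contra hc; exact hed (h.uniq h24 he2 hc hd2 hd4)
  have hy1 : ℓ j1 y = 0 := by
    by_contra hc; exact hya (h.uniq h13 hc hy3 h1 h3)
  have hy2 : ℓ j2 y = 0 := by
    by_contra hc; exact hya (h.uniq h23 hc hy3 h2 h3)
  have hy4 : ℓ j4 y = 0 := by
    by_contra hc; exact hyf (h.uniq h34 hy3 hc hf3 hf4)
  have hbd : b ≠ d := fun e => hb1 (e ▸ hd1)
  have hbf : b ≠ f := fun e => hb1 (e ▸ hf1)
  have hdf : d ≠ f := fun e => hd2 (e ▸ hf2)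
  refine ⟨![a, b, c, d, e, f, y],
    ![ℓ j1 a, ℓ j1 b, ℓ j1 c, ℓ j2 d, ℓ j2 e, ℓ j3 f, ℓ j3 y], ?_, ?_, ?_, ?_, ?_, ?_⟩
  · let key : X → ℕ := fun x => (if ℓ j1 x = 0 then 0 else 1) + (if ℓ j2 x = 0 then 0 else 2) +
      (if ℓ j3 x = 0 then 0 else 4) + (if ℓ j4 x = 0 then 0 else 8)
    have hk : key ∘ ![a, b, c, d, e, f, y] = ![7, 9, 1, 10, 2, 12, 4] := by
      funext k
      fin_cases k <;>
        simp [key, h1, h2, h3, h4, hb1, hb2, hb3, hb4, hc1, hc2, hc3, hc4, hd1, hd2, hd3, hd4,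
          he1, he2, he3, he4, hf1, hf2, hf3, hf4, hy1, hy2, hy3, hy4]
    have hinj : Function.Injective (key ∘ ![a, b, c, d, e, f, y]) := by
      rw [hk]; decide
    exact hinj.of_comp
  · intro k
    fin_cases k
    · exact pm_of_norm3 (h.norm j1) h1
    · exact pm_of_norm3 (h.norm j1) hb1
    · exact pm_of_norm3 (h.norm j1) hc1
    · exact pm_of_norm3 (h.norm j2) hd2
    · exact pm_of_norm3 (h.norm j2) he2
    · exact pm_of_norm3 (h.norm j3) hf3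
    · exact pm_of_norm3 (h.norm j3) hy3
  · intro w
    exact ip_norm3 (h.norm j1) hab hca.symm hcb.symm h1 hb1 hc1 w
  · intro w
    have := ip_norm3 (h.norm j2) had hea.symm hed.symm h2 hd2 he2 w
    rw [h.eqval h12 h1 h2] at this
    exact this
  · intro w
    have := ip_norm3 (h.norm j3) haf hya.symm hyf.symm h3 hf3 hy3 w
    rw [h.eqval h13 h1 h3] at this
    exact this
  · intro w
    have := ip_norm3 (h.norm j4) hbd hbf hdf hb4 hd4 hf4 w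
    rw [hb4v, hd4v, hf4v] at this
    exact this

end Cfsg.Agent.Lib.Helper14.CTI
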