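import Cfsg.Agent.Lib.Helper14.CTI.SH
import Cfsg.Agent.Lib.Helper14.CTI.T2C

set_option autoImplicit false

namespace Cfsg.Agent.Lib.Helper14.CTI

variable {X : Type*} [Fintype X]

/-- two vectors with `ip = 0` and product `≠ 0` at `a` have another common support point -/
theorem c1_exists {v w : X → ℤ} (h : ip v w = 0) {a : X} (ha : v a * w a ≠ 0) :
    ∃ x, x ≠ a ∧ v x ≠ 0 ∧ w x ≠ 0 := by
  by_contra hcon
  apply ha
  rw [← h]
  unfold ip
  symm
  apply Finset.sum_eq_single a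
  · intro x _ hxa
    by_contra hx
    apply hcon
    exact ⟨x, hxa, left_ne_zero_of_mul hx, right_ne_zero_of_mul hx⟩
  · intro hx
    exact absurd (Finset.mem_univ a) hx

/-- RUNG C1: the centre of a row is not the centre of a column (pigeonhole). -/
theorem c1 {I J : Type*} [DecidableEq I] [DecidableEq J] [Fintype I] [Fintype J]
    {β : I → J → X → ℤ} (h : Arr β) (hI : 2 ≤ Fintype.card I) (hJ : 4 ≤ Fintype.card J)
    {i : I} {j : J} {a : X} (hr : ∀ l, β i l a ≠ 0) (hc : ∀ k, β k j a ≠ 0) : False := by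
  obtain ⟨k, hki⟩ := Fintype.exists_ne_of_one_lt_card (by omega) i
  have hT : Two (β i) (β k) := h.two hki.symm
  have hcard : 2 < (Finset.univ.erase j).card := by
    rw [Finset.card_erase_of_mem (Finset.mem_univ j), Finset.card_univ]; omega
  obtain ⟨l1, m1, l2, m2, l3, m3, h12, h13, h23⟩ := Finset.two_lt_card.mp hcard
  have n1 : l1 ≠ j := (Finset.mem_erase.mp m1).1
  have n2 : l2 ≠ j := (Finset.mem_erase.mp m2).1
  have n3 : l3 ≠ j := (Finset.mem_erase.mp m3).1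
  have key : ∀ l, l ≠ j → ∃ x, x ≠ a ∧ β k j x ≠ 0 ∧ β i l x ≠ 0 := by
    intro l hl
    apply c1_exists
    · rw [h k j i l, if_neg hki, if_neg hl.symm, if_neg (fun hh => hki hh.1)]
      rfl
    · exact mul_ne_zero (hc k) (hr l)
  obtain ⟨x1, a1, w1, b1⟩ := key l1 n1
  obtain ⟨x2, a2, w2, b2⟩ := key l2 n2
  obtain ⟨x3, a3, w3, b3⟩ := key l3 n3
  have d12 : x1 ≠ x2 := fun e => a1 (hT.uniq h12 b1 (e ▸ b2) (hr l1) (hr l2))
  have d13 : x1 ≠ x3 := fun e => a1 (hT.uniq h13 b1 (e ▸ b3) (hr l1) (hr l3))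
  have d23 : x2 ≠ x3 := fun e => a2 (hT.uniq h23 b2 (e ▸ b3) (hr l2) (hr l3))
  have hn : ip (β k j) (β k j) = 3 := by
    rw [h k j k j]; simp
  exact norm3_no_four hn a1.symm a2.symm a3.symm d12 d13 d23 (hc k) w1 w2 w3

end Cfsg.Agent.Lib.Helper14.CTI
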