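import Cfsg.Agent.Lib.Helper14.CTI.Defs2
import Cfsg.Agent.Lib.Helper32.CyclicTI6

set_option autoImplicit false

namespace Cfsg.Agent.Lib.Helper14.CTI

open Cfsg Cfsg.Agent.Lib.Helper32

universe u

private theorem card_ne {A : Type*} [Finite A] (a : A) :
    Nat.card {x : A // x ≠ a} = Nat.card A - 1 := by
  classical
  have := Fintype.ofFinite A
  rw [Nat.card_eq_fintype_card, Nat.card_eq_fintype_card, Fintype.card_subtype_compl,
    Fintype.card_subtype_eq]

variable {G : Type u} [Group G] [Finite G] {W₁ W₂ : Subgroup G}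

/-- RUNG CARD1. PROOF. `Helper32.ctiB hd hc : (W₁ →* ℂˣ) × (W₂ →* ℂˣ) ≃ Lin W₁ W₂`; `φ` is `Tr2` iff its second component
is `1` (`cti_comp_P1_trivial`, `ctiB` inverse = restrictions), so `{φ // Tr2 φ} ≃ (W₁ →* ℂˣ)`, of card `|W₁|`
(`Helper32.card_hom_units_of_comm`; `W₁` is commutative as a subgroup of the cyclic group `W`); remove `1`. -/
theorem card_II (hW : IsSelfNormalizingCyclic W₁ W₂) :
    Nat.card (II W₁ W₂) = Nat.card W₁ - 1 ∧ Nat.card (JJ W₁ W₂) = Nat.card W₂ - 1 := by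
  obtain ⟨-, -, hd, hc, hcyc, -⟩ := hW
  have hA : ∀ a b : ↥(W₁ ⊔ W₂), a * b = b * a :=
    (IsCyclic.commGroup (α := ↥(W₁ ⊔ W₂))).mul_comm
  have hA1 : ∀ a b : W₁, a * b = b * a := by
    intro a b
    have := hA (Subgroup.inclusion le_sup_left a) (Subgroup.inclusion le_sup_left b)
    ext
    exact congrArg (fun x : ↥(W₁ ⊔ W₂) => (x : G)) this
  have hA2 : ∀ a b : W₂, a * b = b * a := by
    intro a b
    have := hA (Subgroup.inclusion le_sup_right a) (Subgroup.inclusion le_sup_right b)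
    ext
    exact congrArg (fun x : ↥(W₁ ⊔ W₂) => (x : G)) this
  have hw : ∀ w : ↥(W₁ ⊔ W₂), w = Subgroup.inclusion le_sup_left (ctiP1 hd hc w) *
      Subgroup.inclusion le_sup_right (ctiP2 hd hc w) := fun w => Subtype.ext (ctiP_mul hd hc w)
  constructor
  · rw [← card_hom_units_of_comm hA1, ← card_ne (1 : W₁ →* ℂˣ)]
    symm
    have hP : ∀ a : W₁, ctiP1 hd hc (Subgroup.inclusion le_sup_left a) = a := fun a =>
      (ctiP_of_left hd hc (Subgroup.inclusion le_sup_left a) a.2).1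
    have hinj : ∀ l l' : W₁ →* ℂˣ, l.comp (ctiP1 hd hc) = l'.comp (ctiP1 hd hc) → l = l' := by
      intro l l' h
      ext a
      have := DFunLike.congr_fun h (Subgroup.inclusion le_sup_left a)
      rw [MonoidHom.comp_apply, MonoidHom.comp_apply, hP] at this
      rw [this]
    refine Nat.card_eq_of_bijective (fun l : {l : W₁ →* ℂˣ // l ≠ 1} =>
      (⟨l.1.comp (ctiP1 hd hc), fun h => l.2 (hinj _ _ (by rw [h]; rfl)),
        fun w hw => cti_comp_P1_trivial hd hc _ w hw⟩ : II W₁ W₂)) ⟨?_, ?_⟩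
    · intro l l' h
      exact Subtype.ext (hinj _ _ (congrArg Subtype.val h))
    · intro φ
      have key : (φ.1.comp (Subgroup.inclusion le_sup_left)).comp (ctiP1 hd hc) = φ.1 := by
        ext w
        conv_rhs => rw [hw w, map_mul, φ.2.2 (Subgroup.inclusion le_sup_right (ctiP2 hd hc w))
          (ctiP2 hd hc w).2, mul_one]
        rfl
      refine ⟨⟨φ.1.comp (Subgroup.inclusion le_sup_left), fun h => φ.2.1 ?_⟩, Subtype.ext key⟩
      rw [← key, h]; rfl
  · rw [← card_hom_units_of_comm hA2, ← card_ne (1 : W₂ →* ℂˣ)]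
    symm
    have hP : ∀ a : W₂, ctiP2 hd hc (Subgroup.inclusion le_sup_right a) = a := fun a =>
      (ctiP_of_right hd hc (Subgroup.inclusion le_sup_right a) a.2).2
    have hinj : ∀ l l' : W₂ →* ℂˣ, l.comp (ctiP2 hd hc) = l'.comp (ctiP2 hd hc) → l = l' := by
      intro l l' h
      ext a
      have := DFunLike.congr_fun h (Subgroup.inclusion le_sup_right a)
      rw [MonoidHom.comp_apply, MonoidHom.comp_apply, hP] at this
      rw [this]
    refine Nat.card_eq_of_bijective (fun l : {l : W₂ →* ℂˣ // l ≠ 1} =>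
      (⟨l.1.comp (ctiP2 hd hc), fun h => l.2 (hinj _ _ (by rw [h]; rfl)),
        fun w hw => cti_comp_P2_trivial hd hc _ w hw⟩ : JJ W₁ W₂)) ⟨?_, ?_⟩
    · intro l l' h
      exact Subtype.ext (hinj _ _ (congrArg Subtype.val h))
    · intro φ
      have key : (φ.1.comp (Subgroup.inclusion le_sup_right)).comp (ctiP2 hd hc) = φ.1 := by
        ext w
        conv_rhs => rw [hw w, map_mul, φ.2.2 (Subgroup.inclusion le_sup_left (ctiP1 hd hc w))
          (ctiP1 hd hc w).2, one_mul]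
        rfl
      refine ⟨⟨φ.1.comp (Subgroup.inclusion le_sup_right), fun h => φ.2.1 ?_⟩, Subtype.ext key⟩
      rw [← key, h]; rfl

/-- RUNG CARD2. PROOF. `|W| = |W₁| |W₂|` (`Helper32.cti_card`), so both are odd, `≥ 3` (`Helper32.three_le_card_of_odd`).
`|W₁| ≠ |W₂|`: a cyclic group has at most one subgroup of each order (`IsCyclic.card_subgroup...` /
`Subgroup.eq_of_card_eq` for cyclic; work with `W₁.subgroupOf W`), so `W₁ = W₂ = W₁ ⊓ W₂ = ⊥`. -/
theorem card_W (hW : IsSelfNormalizingCyclic W₁ W₂) (hodd : Odd (Nat.card ↥(W₁ ⊔ W₂))) :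
    Odd (Nat.card W₁) ∧ Odd (Nat.card W₂) ∧ 3 ≤ Nat.card W₁ ∧ 3 ≤ Nat.card W₂ ∧
      Nat.card W₁ ≠ Nat.card W₂ := by
  obtain ⟨hne1, hne2, hd, hc, hcyc, -⟩ := hW
  have : Fintype G := Fintype.ofFinite G
  have hcard := cti_card hd hc
  have hodd' := hodd
  rw [hcard, Nat.odd_mul] at hodd'
  have h3 := three_le_card_of_odd W₁ hne1 hodd'.1
  refine ⟨hodd'.1, hodd'.2, h3, three_le_card_of_odd W₂ hne2 hodd'.2, fun heq => ?_⟩
  have hexp : Monoid.exponent ↥(W₁ ⊔ W₂) ∣ Nat.card W₁ := by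
    apply Monoid.exponent_dvd_of_forall_pow_eq_one
    intro w
    apply Subtype.ext
    rw [Subgroup.coe_pow, ctiP_mul hd hc w,
      (show Commute ((ctiP1 hd hc w : W₁) : G) ((ctiP2 hd hc w : W₂) : G) from
        hc _ (ctiP1 hd hc w).2 _ (ctiP2 hd hc w).2).mul_pow,
      pow_card_subgroup_eq_one W₁ (ctiP1 hd hc w).2, heq,
      pow_card_subgroup_eq_one W₂ (ctiP2 hd hc w).2, one_mul, Subgroup.coe_one]
  rw [IsCyclic.exponent_eq_card, hcard, ← heq] at hexp
  have h4 := Nat.le_of_dvd (by omega) hexp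
  nlinarith

theorem card_cond (hW : IsSelfNormalizingCyclic W₁ W₂) (hodd : Odd (Nat.card ↥(W₁ ⊔ W₂)))
    [Fintype (II W₁ W₂)] [Fintype (JJ W₁ W₂)] :
    (Fintype.card (II W₁ W₂) = 2 ∨ 4 ≤ Fintype.card (II W₁ W₂)) ∧
    (Fintype.card (JJ W₁ W₂) = 2 ∨ 4 ≤ Fintype.card (JJ W₁ W₂)) ∧
    (4 ≤ Fintype.card (II W₁ W₂) ∨ 4 ≤ Fintype.card (JJ W₁ W₂)) := by
  obtain ⟨h1, h2⟩ := card_II hW
  obtain ⟨⟨a, ha⟩, ⟨b, hb⟩, h3, h4, h5⟩ := card_W hW hodd
  rw [← Nat.card_eq_fintype_card, ← Nat.card_eq_fintype_card, h1, h2]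
  omega

end Cfsg.Agent.Lib.Helper14.CTI
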