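import Cfsg.Agent.Lib.Helper14.CTI.SH
import Cfsg.Agent.Lib.Helper14.CTI.T2C

set_option autoImplicit false

namespace Cfsg.Agent.Lib.Helper14.CTI

variable {X : Type*} [Fintype X]

/-- RUNG ORTH: from row centres `r i`, column centres `c j`, `r i ≠ c j`, to the decomposition. -/
theorem orth {I J : Type*} [DecidableEq I] [DecidableEq J] [Fintype I] [Fintype J]
    {β : I → J → X → ℤ} (h : Arr β) (hI : 2 ≤ Fintype.card I) (hJ : 2 ≤ Fintype.card J)
    (r : I → X) (hr : ∀ i j, β i j (r i) ≠ 0) (c : J → X) (hc : ∀ i j, β i j (c j) ≠ 0)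
    (hrc : ∀ i j, r i ≠ c j) : ∃ A B C, Dec β A B C := by
  classical
  have exI : ∀ i : I, ∃ k, k ≠ i := fun i => Fintype.exists_ne_of_one_lt_card (by omega) i
  have exJ : ∀ j : J, ∃ l, l ≠ j := fun j => Fintype.exists_ne_of_one_lt_card (by omega) j
  have hn : ∀ i j, ip (β i j) (β i j) = 3 := by
    intro i j; rw [h i j i j]; simp
  -- rows
  have Runiq : ∀ i j l x, j ≠ l → β i j x ≠ 0 → β i l x ≠ 0 → x = r i := by
    intro i j l x hjl h1 h2
    obtain ⟨k, hk⟩ := exI i
    exact (h.two hk.symm).uniq hjl h1 h2 (hr i j) (hr i l)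
  have Rval : ∀ i j l, β i l (r i) = β i j (r i) := by
    intro i j l
    by_cases hjl : j = l
    · rw [hjl]
    · obtain ⟨k, hk⟩ := exI i
      exact (h.two hk.symm).eqval hjl (hr i j) (hr i l)
  -- columns
  have Cuniq : ∀ j i k x, i ≠ k → β i j x ≠ 0 → β k j x ≠ 0 → x = c j := by
    intro j i k x hik h1 h2
    obtain ⟨l, hl⟩ := exJ j
    exact (h.transpose.two hl.symm).uniq (ℓ := fun i => β i j) hik h1 h2 (hc i j) (hc k j)
  have Cval : ∀ j i k, β k j (c j) = β i j (c j) := by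
    intro j i k
    by_cases hik : i = k
    · rw [hik]
    · obtain ⟨l, hl⟩ := exJ j
      exact (h.transpose.two hl.symm).eqval (ℓ := fun i => β i j) hik (hc i j) (hc k j)
  have hIne : Nonempty I := by rw [← Fintype.card_pos_iff]; omega
  have hJne : Nonempty J := by rw [← Fintype.card_pos_iff]; omega
  obtain ⟨i₀⟩ := hIne
  obtain ⟨j₀⟩ := hJne
  have rinj : ∀ i k, i ≠ k → r i ≠ r k := by
    intro i k hik e
    exact hrc i j₀ (Cuniq j₀ i k (r i) hik (hr i j₀) (e ▸ hr k j₀))
  have cinj : ∀ j l, j ≠ l → c j ≠ c l := by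
    intro j l hjl e
    exact hrc i₀ j (Runiq i₀ j l (c j) hjl (hc i₀ j) (e ▸ hc i₀ l)).symm
  have Z1 : ∀ i k l, i ≠ k → β k l (r i) = 0 := by
    intro i k l hik
    by_contra hne
    exact hrc i l (Cuniq l i k (r i) hik (hr i l) hne)
  have Z2 : ∀ j k l, j ≠ l → β k l (c j) = 0 := by
    intro j k l hjl
    by_contra hne
    exact hrc k j (Runiq k j l (c j) hjl (hc k j) hne).symm
  have sq1 : ∀ i j, β i j (r i) * β i j (r i) = 1 := by
    intro i j
    rcases pm_of_norm3 (hn i j) (hr i j) with e | e <;> rw [e] <;> norm_num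
  have sq2 : ∀ i j, β i j (c j) * β i j (c j) = 1 := by
    intro i j
    rcases pm_of_norm3 (hn i j) (hc i j) with e | e <;> rw [e] <;> norm_num
  obtain ⟨A, hA⟩ : ∃ A : I → X → ℤ, ∀ i, A i = Pi.single (r i) (β i j₀ (r i)) := ⟨_, fun _ => rfl⟩
  obtain ⟨B, hB⟩ : ∃ B : J → X → ℤ, ∀ j, B j = Pi.single (c j) (β i₀ j (c j)) := ⟨_, fun _ => rfl⟩
  have ipA : ∀ i k l, ip (A i) (β k l) = if i = k then 1 else 0 := by
    intro i k l
    rw [hA, ip_single_left]
    by_cases hik : i = k
    · subst hik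
      rw [if_pos rfl, Rval i j₀ l, sq1]
    · rw [if_neg hik, Z1 i k l hik, mul_zero]
  have ipB : ∀ j k l, ip (B j) (β k l) = if j = l then 1 else 0 := by
    intro j k l
    rw [hB, ip_single_left]
    by_cases hjl : j = l
    · subst hjl
      rw [if_pos rfl, Cval j i₀ k, sq2]
    · rw [if_neg hjl, Z2 j k l hjl, mul_zero]
  have AA : ∀ i k, ip (A i) (A k) = if i = k then 1 else 0 := by
    intro i k
    rw [hA i, hA k, ip_single_left]
    by_cases hik : i = k
    · subst hik
      rw [if_pos rfl, Pi.single_eq_same, sq1]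
    · rw [if_neg hik, Pi.single_eq_of_ne (rinj i k hik), mul_zero]
  have BB : ∀ j l, ip (B j) (B l) = if j = l then 1 else 0 := by
    intro j l
    rw [hB j, hB l, ip_single_left]
    by_cases hjl : j = l
    · subst hjl
      rw [if_pos rfl, Pi.single_eq_same, sq2]
    · rw [if_neg hjl, Pi.single_eq_of_ne (cinj j l hjl), mul_zero]
  have AB : ∀ i j, ip (A i) (B j) = 0 := by
    intro i j
    rw [hA i, hB j, ip_single_left, Pi.single_eq_of_ne (hrc i j), mul_zero]
  have AC : ∀ i k l, ip (A i) (β k l - A k - B l) = 0 := by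
    intro i k l
    rw [ip_sub_right, ip_sub_right, ipA, AA, AB]; ring
  have BC : ∀ j k l, ip (B j) (β k l - A k - B l) = 0 := by
    intro j k l
    rw [ip_sub_right, ip_sub_right, ipB, BB, ip_comm (B j) (A k), AB]; ring
  refine ⟨A, B, fun i j => β i j - A i - B j, ⟨?_, AA, BB, ?_, AB, AC, BC⟩⟩
  · intro i j
    abel
  · intro i j k l
    rw [ip_sub_left, ip_sub_left, AC, BC, ip_sub_right, ip_sub_right, h i j k l,
      ip_comm (β i j) (A k), ip_comm (β i j) (B l), ipA, ipB]
    by_cases hik : i = k <;> by_cases hjl : j = l <;> simp [hik, hjl, eq_comm]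

end Cfsg.Agent.Lib.Helper14.CTI
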