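import Cfsg.Agent.Lib.Helper14.CTI.ROW
import Cfsg.Agent.Lib.Helper14.CTI.C1
import Cfsg.Agent.Lib.Helper14.CTI.ORTH

set_option autoImplicit false

namespace Cfsg.Agent.Lib.Helper14.CTI

variable {X : Type*} [Fintype X]

/-- RUNG DEC1: the case `4 ≤ |J|`.
PROOF. Rows: for each `i` pick `k ≠ i`, `row (h.two _) hJ`. Columns: if `4 ≤ |I|` the same for `h.transpose`. If `|I| = 2`:
`I = {i, k}`; `c j` := the point shared by `β i j`, `β k j` (`Two.share` for `h.transpose.two`, needs another column).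
`r i ≠ c j` by `c1`. Conclude by `orth`. -/
theorem dec1 {I J : Type*} [DecidableEq I] [DecidableEq J] [Fintype I] [Fintype J]
    {β : I → J → X → ℤ} (h : Arr β) (hI : Fintype.card I = 2 ∨ 4 ≤ Fintype.card I)
    (hJ : 4 ≤ Fintype.card J) : ∃ A B C, Dec β A B C := by
  have hI2 : 2 ≤ Fintype.card I := by omega
  have hexI : ∀ i : I, ∃ k, i ≠ k := fun i => by
    obtain ⟨k, hk⟩ := Fintype.exists_ne_of_one_lt_card (show 1 < Fintype.card I by omega) i
    exact ⟨k, Ne.symm hk⟩
  have hexJ : ∀ j : J, ∃ l, j ≠ l := fun j => by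
    obtain ⟨l, hl⟩ := Fintype.exists_ne_of_one_lt_card (show 1 < Fintype.card J by omega) j
    exact ⟨l, Ne.symm hl⟩
  have hrow : ∀ i, ∃ r, ∀ j, β i j r ≠ 0 := fun i => by
    obtain ⟨k, hik⟩ := hexI i
    exact row (h.two hik) hJ
  have hcol : ∀ j, ∃ c, ∀ i, β i j c ≠ 0 := fun j => by
    obtain ⟨l, hjl⟩ := hexJ j
    rcases hI with hI | hI
    · obtain ⟨i, k, hik, huniv⟩ := Nat.card_eq_two_iff.1 ((Nat.card_eq_fintype_card (α := I)).trans hI)
      obtain ⟨x, x1, x2, -⟩ := (h.transpose.two hjl).share hik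
      refine ⟨x, fun i' => ?_⟩
      have : i' ∈ ({i, k} : Set I) := by rw [huniv]; exact Set.mem_univ _
      rcases this with rfl | hk
      · exact x1
      · rw [Set.mem_singleton_iff] at hk
        subst hk
        intro h0
        exact x1 (x2.symm.trans h0)
    · exact row (h.transpose.two hjl) hI
  choose r hr using hrow
  choose c hc using hcol
  exact orth h hI2 (by omega) r hr c (fun i j => hc j i)
    (fun i j hij => c1 h hI2 hJ (hr i) (fun k => by rw [hij]; exact hc j k))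

/-- the lattice form of Peterfalvi (3.2) -/
theorem exists_dec {I J : Type*} [DecidableEq I] [DecidableEq J] [Fintype I] [Fintype J]
    {β : I → J → X → ℤ} (h : Arr β) (hI : Fintype.card I = 2 ∨ 4 ≤ Fintype.card I)
    (hJ : Fintype.card J = 2 ∨ 4 ≤ Fintype.card J)
    (h4 : 4 ≤ Fintype.card I ∨ 4 ≤ Fintype.card J) : ∃ A B C, Dec β A B C := by
  by_cases hJ4 : 4 ≤ Fintype.card J
  · exact dec1 h hI hJ4
  · have hI4 : 4 ≤ Fintype.card I := h4.resolve_right hJ4
    obtain ⟨A, B, C, hd⟩ := dec1 h.transpose hJ hI4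
    exact ⟨B, A, fun i j => C j i, hd.transpose⟩

end Cfsg.Agent.Lib.Helper14.CTI
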