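import Mathlib

/-!
# Ladder CTI (S1502, Peterfalvi 3.2 / 3.5): shared definitions (pure lattice part)
-/

set_option autoImplicit false

namespace Cfsg.Agent.Lib.Helper14.CTI

variable {X : Type*} [Fintype X]

/-- the standard inner product on `ℤ ^ X` -/
def ip (u v : X → ℤ) : ℤ := ∑ x, u x * v x

/-- two rows of the array: `ℓ j`, `u j` have norm 3, two vectors of the same row have inner product 1,
`ℓ j` and `u l` have inner product 1 if `j = l`, 0 otherwise. -/
structure Two {J : Type*} [DecidableEq J] (ℓ u : J → X → ℤ) : Prop where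
  ll : ∀ j l, ip (ℓ j) (ℓ l) = if j = l then 3 else 1
  uu : ∀ j l, ip (u j) (u l) = if j = l then 3 else 1
  lu : ∀ j l, ip (ℓ j) (u l) = if j = l then 1 else 0

/-- the Gram condition on the whole array -/
def Arr {I J : Type*} [DecidableEq I] [DecidableEq J] (β : I → J → X → ℤ) : Prop :=
  ∀ i j k l, ip (β i j) (β k l) =
    (if i = k then 1 else 0) + (if j = l then 1 else 0) + (if i = k ∧ j = l then 1 else 0)

/-- the conclusion: `β i j = A i + B j + C i j` with all `A i`, `B j`, `C i j` orthonormal. -/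
structure Dec {I J : Type*} [DecidableEq I] [DecidableEq J] (β : I → J → X → ℤ)
    (A : I → X → ℤ) (B : J → X → ℤ) (C : I → J → X → ℤ) : Prop where
  eq : ∀ i j, β i j = A i + B j + C i j
  AA : ∀ i k, ip (A i) (A k) = if i = k then 1 else 0
  BB : ∀ j l, ip (B j) (B l) = if j = l then 1 else 0
  CC : ∀ i j k l, ip (C i j) (C k l) = if i = k ∧ j = l then 1 else 0
  AB : ∀ i j, ip (A i) (B j) = 0
  AC : ∀ i k l, ip (A i) (C k l) = 0
  BC : ∀ j k l, ip (B j) (C k l) = 0

end Cfsg.Agent.Lib.Helper14.CTI
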