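import Cfsg.Agent.Lib.Helper14.CTI.Defs
import Cfsg.Agent.Lib.Helper32.GenChar
import Cfsg.Agent.Lib.Helper32.CyclicTI5
import Cfsg.Agent.Lib.Helper32.CyclicTI3
import Cfsg.Agent.Lib.Helper4.CharBasic
import Cfsg.Agent.Lib.Helper19.IndChar

/-!
# Ladder CTI (S1502): definitions for the character-theoretic part
-/

set_option autoImplicit false

namespace Cfsg.Agent.Lib.Helper14.CTI

open Cfsg

universe u

variable {G : Type u} [Group G]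

/-- linear characters of `W = W₁ ⊔ W₂` -/
abbrev Lin (W₁ W₂ : Subgroup G) : Type u := ↥(W₁ ⊔ W₂) →* ℂˣ

/-- trivial on `W₂` -/
def Tr2 {W₁ W₂ : Subgroup G} (φ : Lin W₁ W₂) : Prop := ∀ w : ↥(W₁ ⊔ W₂), (w : G) ∈ W₂ → φ w = 1

/-- trivial on `W₁` -/
def Tr1 {W₁ W₂ : Subgroup G} (ψ : Lin W₁ W₂) : Prop := ∀ w : ↥(W₁ ⊔ W₂), (w : G) ∈ W₁ → ψ w = 1

/-- `(1 - φ)(1 - ψ)` -/
noncomputable def alpha {W₁ W₂ : Subgroup G} (φ ψ : Lin W₁ W₂) : ↥(W₁ ⊔ W₂) → ℂ :=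
  fun w => 1 - (φ w : ℂ) - (ψ w : ℂ) + (φ w : ℂ) * (ψ w : ℂ)

/-- the index sets -/
abbrev II (W₁ W₂ : Subgroup G) : Type u := {φ : Lin W₁ W₂ // φ ≠ 1 ∧ Tr2 φ}
abbrev JJ (W₁ W₂ : Subgroup G) : Type u := {ψ : Lin W₁ W₂ // ψ ≠ 1 ∧ Tr1 ψ}

/-- the principal character -/
def prin (G : Type u) [Group G] : IrrCharacter G :=
  ⟨fun _ => 1, Cfsg.Agent.Lib.Helper4.isIrrCharacter_one⟩

/-- the virtual character with coefficient vector `c` -/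
noncomputable def re [Fintype (IrrCharacter G)] (c : IrrCharacter G → ℤ) : G → ℂ :=
  ∑ χ : IrrCharacter G, (c χ : ℂ) • (χ : G → ℂ)

/-- the family on pairs -/
structure Eta [Fintype G] (W₁ W₂ : Subgroup G) (η : Lin W₁ W₂ → Lin W₁ W₂ → G → ℂ) : Prop where
  signed : ∀ φ ψ, Tr2 φ → Tr1 ψ → (IsIrrCharacter G (η φ ψ) ∨ IsIrrCharacter G (-η φ ψ))
  inner : ∀ φ ψ φ' ψ', Tr2 φ → Tr1 ψ → Tr2 φ' → Tr1 ψ' →
    ((φ = φ' ∧ ψ = ψ') → classInner (η φ ψ) (η φ' ψ') = 1) ∧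
    (¬ (φ = φ' ∧ ψ = ψ') → classInner (η φ ψ) (η φ' ψ') = 0)
  one : η 1 1 = fun _ => 1
  ind : ∀ φ ψ, φ ≠ 1 → ψ ≠ 1 → Tr2 φ → Tr1 ψ →
    indFun (W₁ ⊔ W₂) (alpha φ ψ) = fun g => 1 - η φ 1 g - η 1 ψ g + η φ ψ g

end Cfsg.Agent.Lib.Helper14.CTI
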