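import Cfsg.Agent.Lib.Helper14.CTI.LR

set_option autoImplicit false

namespace Cfsg.Agent.Lib.Helper14.CTI

open Cfsg Cfsg.Agent.Lib.Helper20 Cfsg.Agent.Lib.Helper32

universe u

variable {G : Type u} [Group G] [Fintype G] {W₁ W₂ : Subgroup G}

theorem Eta.classFun {η : Lin W₁ W₂ → Lin W₁ W₂ → G → ℂ} (h : Eta W₁ W₂ η) {φ ψ : Lin W₁ W₂}
    (hφ : Tr2 φ) (hψ : Tr1 ψ) : IsClassFunction G (η φ ψ) := by
  rcases h.signed φ ψ hφ hψ with hs | hs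
  · exact genChar_isClassFunction (genChar_of_irr hs)
  · have := genChar_isClassFunction (genChar_neg (genChar_of_irr hs))
    simpa using this

open Classical in
theorem Eta.inner_if {η : Lin W₁ W₂ → Lin W₁ W₂ → G → ℂ} (h : Eta W₁ W₂ η)
    {φ ψ φ' ψ' : Lin W₁ W₂} (hφ : Tr2 φ) (hψ : Tr1 ψ) (hφ' : Tr2 φ') (hψ' : Tr1 ψ') :
    classInner (η φ ψ) (η φ' ψ') = if φ = φ' ∧ ψ = ψ' then 1 else 0 := by
  have := h.inner φ ψ φ' ψ' hφ hψ hφ' hψ'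
  split_ifs with e
  · exact this.1 e
  · exact this.2 e

/-- RUNG EQON: `η φ ψ = φ ψ` on `W ∖ (W₁ ∪ W₂)`. -/
theorem eqon (hW : IsSelfNormalizingCyclic W₁ W₂) {η : Lin W₁ W₂ → Lin W₁ W₂ → G → ℂ}
    (h : Eta W₁ W₂ η) {φ ψ : Lin W₁ W₂} (hφ : Tr2 φ) (hψ : Tr1 ψ) (w : ↥(W₁ ⊔ W₂))
    (h1 : (w : G) ∉ W₁) (h2 : (w : G) ∉ W₂) : η φ ψ w = (((φ * ψ) w : ℂˣ) : ℂ) := by
  classical
  have hd := hW.2.2.1
  have hc := hW.2.2.2.1
  haveI : Fintype ↥(W₁ ⊔ W₂) := Fintype.ofFinite _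
  have hcomm : ∀ a b : ↥(W₁ ⊔ W₂), a * b = b * a := by
    have := hW.2.2.2.2.1
    exact fun a b => (IsCyclic.commGroup (α := ↥(W₁ ⊔ W₂))).mul_comm a b
  have t1 : Tr2 (1 : Lin W₁ W₂) := fun _ _ => rfl
  have t1' : Tr1 (1 : Lin W₁ W₂) := fun _ _ => rfl
  have hf : (fun x : ↥(W₁ ⊔ W₂) => η φ ψ x - (((φ * ψ) x : ℂˣ) : ℂ)) w = 0 := by
    apply ann_vanish hcomm (W₁.subgroupOf (W₁ ⊔ W₂)) (W₂.subgroupOf (W₁ ⊔ W₂)) ?_ h1 h2 _ ?_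
    · rw [eq_bot_iff]
      intro x hx
      have hx' : (x : G) ∈ W₁ ⊓ W₂ := ⟨hx.1, hx.2⟩
      rw [hd, Subgroup.mem_bot] at hx'
      rw [Subgroup.mem_bot]
      exact Subtype.ext hx'
    · intro φ' ψ' hφ' hψ'
      have hφ'' : Tr2 φ' := fun x hx => hφ' x hx
      have hψ'' : Tr1 ψ' := fun x hx => hψ' x hx
      by_cases e1 : φ' = 1
      · subst e1
        have : (fun x : ↥(W₁ ⊔ W₂) => 1 - (((1 : Lin W₁ W₂) x : ℂˣ) : ℂ) - (ψ' x : ℂ)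
            + (((1 : Lin W₁ W₂) x : ℂˣ) : ℂ) * (ψ' x : ℂ)) = 0 := by
          funext x; simp
        rw [this, classInner_zero_left]
      by_cases e2 : ψ' = 1
      · subst e2
        have : (fun x : ↥(W₁ ⊔ W₂) => 1 - (φ' x : ℂ) - (((1 : Lin W₁ W₂) x : ℂˣ) : ℂ)
            + (φ' x : ℂ) * (((1 : Lin W₁ W₂) x : ℂˣ) : ℂ)) = 0 := by
          funext x; simp
        rw [this, classInner_zero_left]
      have hsplit : (fun x : ↥(W₁ ⊔ W₂) => η φ ψ x - (((φ * ψ) x : ℂˣ) : ℂ)) =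
          (fun x : ↥(W₁ ⊔ W₂) => η φ ψ x) - (fun x : ↥(W₁ ⊔ W₂) => (((φ * ψ) x : ℂˣ) : ℂ)) := rfl
      rw [hsplit, classInner_sub_right, cti_alpha_inner_lin,
        ← Cfsg.Agent.Lib.Helper19.frobenius_reciprocity _ _ _ (h.classFun hφ hψ)]
      have hind := h.ind φ' ψ' e1 e2 hφ'' hψ''
      have hind' : indFun (W₁ ⊔ W₂) (fun x : ↥(W₁ ⊔ W₂) => 1 - (φ' x : ℂ) - (ψ' x : ℂ)
          + (φ' x : ℂ) * (ψ' x : ℂ)) = η 1 1 - η φ' 1 - η 1 ψ' + η φ' ψ' := by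
        rw [h.one]
        exact hind
      rw [hind', classInner_add_left, classInner_sub_left, classInner_sub_left,
        h.inner_if t1 t1' hφ hψ, h.inner_if hφ'' t1' hφ hψ, h.inner_if t1 hψ'' hφ hψ,
        h.inner_if hφ'' hψ'' hφ hψ]
      simp only [cti_mul_eq_one_iff hc hφ hψ, cti_left_eq_mul_iff hc hφ'' hφ hψ,
        cti_right_eq_mul_iff hc hψ'' hφ hψ, cti_mul_eq_iff hc hφ'' hφ hψ'' hψ]
      by_cases a1 : φ = 1 <;> by_cases a2 : ψ = 1 <;> by_cases a3 : φ' = φ <;>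
        by_cases a4 : ψ' = ψ <;> simp [a1, a2, a3, a4, eq_comm]
  exact sub_eq_zero.mp hf

end Cfsg.Agent.Lib.Helper14.CTI
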