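import Cfsg.Agent.Lib.Helper14.CTI.BAS

set_option autoImplicit false

namespace Cfsg.Agent.Lib.Helper14.CTI

variable {X : Type*} [Fintype X]

private theorem zero_aux [DecidableEq X] {p q : X} {c d : ℤ} (hc : c ≠ 0) (hd : d ≠ 0)
    (h : ip (Pi.single p c : X → ℤ) (Pi.single q d) = 0) : p ≠ q := by
  rintro rfl
  rw [ip_single_left, Pi.single_eq_same] at h
  exact mul_ne_zero hc hd h

/-- RUNG ZERO: three orthonormal vectors have disjoint supports.
PROOF. `norm1`: `a = ± e_p`, `b = ± e_q`, `c = ± e_s`; orthogonality gives `p, q, s` distinct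
(`ip_single_left`); evaluate at `x`. -/
theorem zero_of_sum {a b c : X → ℤ} (ha : ip a a = 1) (hb : ip b b = 1) (hc : ip c c = 1)
    (hab : ip a b = 0) (hac : ip a c = 0) (hbc : ip b c = 0) {x : X} (hx : (a + b + c) x = 0) :
    a x = 0 ∧ b x = 0 ∧ c x = 0 := by
  classical
  have key : ∀ u : X → ℤ, ip u u = 1 → ∃ p e, e ≠ 0 ∧ u = Pi.single p e := by
    intro u hu
    obtain ⟨p, h | h⟩ := norm1 hu
    · exact ⟨p, 1, one_ne_zero, h⟩
    · exact ⟨p, -1, by norm_num, h⟩
  obtain ⟨p, e1, he1, rfl⟩ := key a ha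
  obtain ⟨q, e2, he2, rfl⟩ := key b hb
  obtain ⟨s, e3, he3, rfl⟩ := key c hc
  have hpq := zero_aux he1 he2 hab
  have hps := zero_aux he1 he3 hac
  have hqs := zero_aux he2 he3 hbc
  rw [Pi.add_apply, Pi.add_apply] at hx
  by_cases h1 : x = p
  · subst h1
    rw [Pi.single_eq_same, Pi.single_eq_of_ne hpq, Pi.single_eq_of_ne hps] at hx
    exact absurd (by omega) he1
  · by_cases h2 : x = q
    · subst h2
      rw [Pi.single_eq_same, Pi.single_eq_of_ne h1, Pi.single_eq_of_ne hqs] at hx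
      exact absurd (by omega) he2
    · by_cases h3 : x = s
      · subst h3
        rw [Pi.single_eq_same, Pi.single_eq_of_ne h1, Pi.single_eq_of_ne h2] at hx
        exact absurd (by omega) he3
      · exact ⟨Pi.single_eq_of_ne h1 _, Pi.single_eq_of_ne h2 _, Pi.single_eq_of_ne h3 _⟩

end Cfsg.Agent.Lib.Helper14.CTI
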