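import Cfsg.Agent.Lib.Helper14.CTI.REAL
import Cfsg.Agent.Lib.Helper14.CTI.ZERO

set_option autoImplicit false

namespace Cfsg.Agent.Lib.Helper14.CTI

open Cfsg

universe u

variable {G : Type u} [Group G] [Fintype G] [Fintype (IrrCharacter G)] {W₁ W₂ : Subgroup G}

omit [Fintype G] in
theorem re_single_prin [DecidableEq (IrrCharacter G)] :
    re (Pi.single (prin G) 1 : IrrCharacter G → ℤ) = fun _ => 1 := by
  unfold re
  rw [Finset.sum_eq_single (prin G)]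
  · rw [Pi.single_eq_same]
    simp [prin]
  · intro χ _ hχ
    rw [Pi.single_eq_of_ne hχ]
    simp
  · intro h; exact absurd (Finset.mem_univ _) h

/-- the vectors indexed by `Option × Option` -/
def etaVec {I J X : Type*} (P : X → ℤ) (A : I → X → ℤ) (B : J → X → ℤ) (C : I → J → X → ℤ) :
    Option I → Option J → X → ℤ
  | none, none => P
  | some i, none => -A i
  | none, some j => -B j
  | some i, some j => C i j

/-- RUNG ETA: from the decomposition to the family on pairs. -/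
theorem exists_eta [DecidableEq (II W₁ W₂)] [DecidableEq (JJ W₁ W₂)]
    (hI : Nonempty (II W₁ W₂)) (hJ : Nonempty (JJ W₁ W₂))
    {β : II W₁ W₂ → JJ W₁ W₂ → IrrCharacter G → ℤ} {A : II W₁ W₂ → IrrCharacter G → ℤ}
    {B : JJ W₁ W₂ → IrrCharacter G → ℤ} {C : II W₁ W₂ → JJ W₁ W₂ → IrrCharacter G → ℤ}
    (hd : Dec β A B C) (h0 : ∀ i j, β i j (prin G) = 0)
    (hind : ∀ i j, indFun (W₁ ⊔ W₂) (alpha i.1 j.1) = (fun _ => 1) + re (β i j)) :
    ∃ η, Eta W₁ W₂ η := by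
  classical
  have hz : ∀ i j, A i (prin G) = 0 ∧ B j (prin G) = 0 ∧ C i j (prin G) = 0 := by
    intro i j
    have h1 := h0 i j
    rw [hd.eq i j] at h1
    exact zero_of_sum (by rw [hd.AA, if_pos rfl]) (by rw [hd.BB, if_pos rfl])
      (by rw [hd.CC, if_pos ⟨rfl, rfl⟩]) (hd.AB i j) (hd.AC i i j) (hd.BC j i j) h1
  have zA : ∀ i, A i (prin G) = 0 := fun i => by
    obtain ⟨j⟩ := hJ; exact (hz i j).1
  have zB : ∀ j, B j (prin G) = 0 := fun j => by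
    obtain ⟨i⟩ := hI; exact (hz i j).2.1
  have zC : ∀ i j, C i j (prin G) = 0 := fun i j => (hz i j).2.2
  have BA : ∀ i j, ip (B j) (A i) = 0 := fun i j => by rw [ip_comm]; exact hd.AB i j
  have CA : ∀ i k l, ip (C k l) (A i) = 0 := fun i k l => by rw [ip_comm]; exact hd.AC i k l
  have CB : ∀ j k l, ip (C k l) (B j) = 0 := fun j k l => by rw [ip_comm]; exact hd.BC j k l
  set P : IrrCharacter G → ℤ := Pi.single (prin G) 1 with hP
  have hE : ∀ a b a' b', ip (etaVec P A B C a b) (etaVec P A B C a' b') =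
      if a = a' ∧ b = b' then 1 else 0 := by
    intro a b a' b'
    rcases a with _ | i <;> rcases b with _ | j <;> rcases a' with _ | i' <;>
      rcases b' with _ | j' <;>
      simp [etaVec, hP, ip_neg_left, ip_neg_right, ip_single_left, ip_single_right, hd.AA, hd.BB,
        hd.CC, hd.AB, hd.AC, hd.BC, zA, zB, zC, BA, CA, CB]
  let kI : Lin W₁ W₂ → Option (II W₁ W₂) := fun φ => if h : φ ≠ 1 ∧ Tr2 φ then some ⟨φ, h⟩ else none
  let kJ : Lin W₁ W₂ → Option (JJ W₁ W₂) := fun ψ => if h : ψ ≠ 1 ∧ Tr1 ψ then some ⟨ψ, h⟩ else none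
  have kI1 : kI 1 = none := by simp [kI]
  have kJ1 : kJ 1 = none := by simp [kJ]
  have kIs : ∀ φ (h : φ ≠ 1 ∧ Tr2 φ), kI φ = some ⟨φ, h⟩ := fun φ h => by simp only [kI]; rw [dif_pos h]
  have kJs : ∀ ψ (h : ψ ≠ 1 ∧ Tr1 ψ), kJ ψ = some ⟨ψ, h⟩ := fun ψ h => by simp only [kJ]; rw [dif_pos h]
  have kIinj : ∀ φ φ', Tr2 φ → Tr2 φ' → (kI φ = kI φ' ↔ φ = φ') := by
    intro φ φ' h1 h2
    refine ⟨fun e => ?_, fun e => by rw [e]⟩
    by_cases a : φ = 1 <;> by_cases b : φ' = 1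
    · rw [a, b]
    · rw [a, kI1, kIs φ' ⟨b, h2⟩] at e; exact absurd e (by simp)
    · rw [b, kI1, kIs φ ⟨a, h1⟩] at e; exact absurd e (by simp)
    · rw [kIs φ ⟨a, h1⟩, kIs φ' ⟨b, h2⟩] at e
      exact congrArg Subtype.val (Option.some.inj e)
  have kJinj : ∀ ψ ψ', Tr1 ψ → Tr1 ψ' → (kJ ψ = kJ ψ' ↔ ψ = ψ') := by
    intro φ φ' h1 h2
    refine ⟨fun e => ?_, fun e => by rw [e]⟩
    by_cases a : φ = 1 <;> by_cases b : φ' = 1
    · rw [a, b]
    · rw [a, kJ1, kJs φ' ⟨b, h2⟩] at e; exact absurd e (by simp)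
    · rw [b, kJ1, kJs φ ⟨a, h1⟩] at e; exact absurd e (by simp)
    · rw [kJs φ ⟨a, h1⟩, kJs φ' ⟨b, h2⟩] at e
      exact congrArg Subtype.val (Option.some.inj e)
  refine ⟨fun φ ψ => re (etaVec P A B C (kI φ) (kJ ψ)), ⟨?_, ?_, ?_, ?_⟩⟩
  · intro φ ψ _ _
    apply re_signed
    rw [hE, if_pos ⟨rfl, rfl⟩]
  · intro φ ψ φ' ψ' h1 h2 h1' h2'
    constructor
    · rintro ⟨rfl, rfl⟩
      rw [inner_re, hE, if_pos ⟨rfl, rfl⟩]; simp
    · intro hne
      rw [inner_re, hE, if_neg]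
      · simp
      · rintro ⟨e1, e2⟩
        exact hne ⟨(kIinj φ φ' h1 h1').mp e1, (kJinj ψ ψ' h2 h2').mp e2⟩
  · show re (etaVec P A B C (kI 1) (kJ 1)) = _
    rw [kI1, kJ1]
    exact re_single_prin
  · intro φ ψ a b h1 h2
    have := hind ⟨φ, a, h1⟩ ⟨ψ, b, h2⟩
    rw [hd.eq, re_add, re_add] at this
    show indFun (W₁ ⊔ W₂) (alpha φ ψ) = _
    rw [this]
    funext g
    show _ = 1 - re (etaVec P A B C (kI φ) (kJ 1)) g - re (etaVec P A B C (kI 1) (kJ ψ)) g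
      + re (etaVec P A B C (kI φ) (kJ ψ)) g
    rw [kI1, kJ1, kIs φ ⟨a, h1⟩, kJs ψ ⟨b, h2⟩]
    simp only [etaVec, re_neg, Pi.add_apply, Pi.neg_apply]
    ring

end Cfsg.Agent.Lib.Helper14.CTI
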