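import Cfsg.Agent.Lib.Helper14.CTI.EQON

set_option autoImplicit false

namespace Cfsg.Agent.Lib.Helper14.CTI

open Cfsg

universe u

variable {G : Type u} [Group G] [Fintype G] {W₁ W₂ : Subgroup G}

/-- RUNG FIN: from the family on pairs to the family on `Lin W₁ W₂`. -/
theorem fin (hW : IsSelfNormalizingCyclic W₁ W₂) {η : Lin W₁ W₂ → Lin W₁ W₂ → G → ℂ}
    (h : Eta W₁ W₂ η) : ∃ χ : (↥(W₁ ⊔ W₂) →* ℂˣ) → (G → ℂ), IsCyclicTIFamily W₁ W₂ χ := by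
  classical
  have hd := hW.2.2.1
  have hc := hW.2.2.2.1
  choose L R hL hR hLR using exists_lr hd hc
  have t1 : Tr2 (1 : Lin W₁ W₂) := fun _ _ => rfl
  have t1' : Tr1 (1 : Lin W₁ W₂) := fun _ _ => rfl
  have key : ∀ φ ψ : Lin W₁ W₂, Tr2 φ → Tr1 ψ → L (φ * ψ) = φ ∧ R (φ * ψ) = ψ := by
    intro φ ψ h1 h2
    exact (lr_unique hc (hL _) (hR _) h1 h2).mp (hLR (φ * ψ)).symm
  have m1 : ∀ φ : Lin W₁ W₂, φ * 1 = φ := by
    intro φ; ext w; simp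
  have m2 : ∀ φ : Lin W₁ W₂, 1 * φ = φ := by
    intro φ; ext w; simp
  refine ⟨fun ω => η (L ω) (R ω), ⟨?_, ?_, ?_, ?_, ?_⟩⟩
  · intro ω
    exact h.signed _ _ (hL ω) (hR ω)
  · intro ω ω'
    have hiff : (L ω = L ω' ∧ R ω = R ω') ↔ ω = ω' := by
      constructor
      · rintro ⟨e1, e2⟩
        rw [hLR ω, hLR ω', e1, e2]
      · rintro rfl
        exact ⟨rfl, rfl⟩
    have := h.inner (L ω) (R ω) (L ω') (R ω') (hL ω) (hR ω) (hL ω') (hR ω')
    split_ifs with e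
    · exact this.1 (hiff.mpr e)
    · exact this.2 (fun hh => e (hiff.mp hh))
  · have := key 1 1 t1 t1'
    rw [m1] at this
    show η (L 1) (R 1) = _
    rw [this.1, this.2]
    exact h.one
  · intro ω w h1 h2
    show η (L ω) (R ω) w = _
    rw [eqon hW h (hL ω) (hR ω) w h1 h2, ← hLR ω]
  · intro φ ψ hφ hψ hφ2 hψ1
    have k1 := key φ 1 hφ2 t1'
    have k2 := key 1 ψ t1 hψ1
    have k3 := key φ ψ hφ2 hψ1
    rw [m1] at k1
    rw [m2] at k2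
    have := h.ind φ ψ hφ hψ hφ2 hψ1
    show indFun _ (alpha φ ψ) = _
    rw [this]
    funext g
    simp only [k1.1, k1.2, k2.1, k2.2, k3.1, k3.2]

end Cfsg.Agent.Lib.Helper14.CTI
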