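import Cfsg.Agent.Lib.Helper14.CTI.SH

set_option autoImplicit false

namespace Cfsg.Agent.Lib.Helper14.CTI

variable {X : Type*} [Fintype X]

/-- RUNG K4: four lines of the first row, no three concurrent: impossible (parity).
PROOF. `p_jl` := the point shared by `ℓ j`, `ℓ l` (`Two.share`), 6 points. `p12, p13, p14` are distinct
(`p12 = p13` would lie on three lines), so they are the support of `ℓ j1` and (`ip_norm3`, `w = u j1`)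
`1 = ip (ℓ j1) w = t12 + t13 + t14` with `t_jl = ℓ j (p_jl) * w (p_jl) = ℓ l (p_jl) * w (p_jl)`; similarly
`0 = t12 + t23 + t24 = t13 + t23 + t34 = t14 + t24 + t34`. Sum: `1 = 2 * (...)`, `omega`. -/
theorem k4 {J : Type*} [DecidableEq J] {ℓ u : J → X → ℤ} (h : Two ℓ u) {j1 j2 j3 j4 : J}
    (h12 : j1 ≠ j2) (h13 : j1 ≠ j3) (h14 : j1 ≠ j4) (h23 : j2 ≠ j3) (h24 : j2 ≠ j4) (h34 : j3 ≠ j4)
    (n123 : ∀ x, ℓ j1 x ≠ 0 → ℓ j2 x ≠ 0 → ℓ j3 x = 0)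
    (n124 : ∀ x, ℓ j1 x ≠ 0 → ℓ j2 x ≠ 0 → ℓ j4 x = 0)
    (n134 : ∀ x, ℓ j1 x ≠ 0 → ℓ j3 x ≠ 0 → ℓ j4 x = 0)
    (n234 : ∀ x, ℓ j2 x ≠ 0 → ℓ j3 x ≠ 0 → ℓ j4 x = 0) : False := by
  obtain ⟨p12, a12, b12, -⟩ := h.share h12
  obtain ⟨p13, a13, b13, -⟩ := h.share h13
  obtain ⟨p14, a14, b14, -⟩ := h.share h14
  obtain ⟨p23, a23, b23, -⟩ := h.share h23
  obtain ⟨p24, a24, b24, -⟩ := h.share h24
  obtain ⟨p34, a34, b34, -⟩ := h.share h34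
  have c12 : ℓ j2 p12 ≠ 0 := by rw [b12]; exact a12
  have c13 : ℓ j3 p13 ≠ 0 := by rw [b13]; exact a13
  have c14 : ℓ j4 p14 ≠ 0 := by rw [b14]; exact a14
  have c23 : ℓ j3 p23 ≠ 0 := by rw [b23]; exact a23
  have c24 : ℓ j4 p24 ≠ 0 := by rw [b24]; exact a24
  have c34 : ℓ j4 p34 ≠ 0 := by rw [b34]; exact a34
  have hn : ∀ j, ip (ℓ j) (ℓ j) = 3 := fun j => by rw [h.ll, if_pos rfl]
  -- line 1
  have d1 : p12 ≠ p13 := fun e => c13 (n123 _ a13 (e ▸ c12))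
  have d2 : p12 ≠ p14 := fun e => c14 (n124 _ a14 (e ▸ c12))
  have d3 : p13 ≠ p14 := fun e => c14 (n134 _ a14 (e ▸ c13))
  -- line 2
  have d4 : p12 ≠ p23 := fun e => c23 (n123 _ (e ▸ a12) a23)
  have d5 : p12 ≠ p24 := fun e => c24 (n124 _ (e ▸ a12) a24)
  have d6 : p23 ≠ p24 := fun e => c24 (n234 _ a24 (e ▸ c23))
  -- line 3
  have d7 : p13 ≠ p23 := fun e => c23 (n123 _ (e ▸ a13) a23)
  have d8 : p13 ≠ p34 := fun e => c34 (n134 _ (e ▸ a13) a34)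
  have d9 : p23 ≠ p34 := fun e => c34 (n234 _ (e ▸ a23) a34)
  -- line 4
  have d10 : p14 ≠ p24 := fun e => c24 (n124 _ (e ▸ a14) a24)
  have d11 : p14 ≠ p34 := fun e => c34 (n134 _ (e ▸ a14) a34)
  have d12 : p24 ≠ p34 := fun e => c34 (n234 _ (e ▸ a24) a34)
  have e1 := ip_norm3 (hn j1) d1 d2 d3 a12 a13 a14 (u j1)
  have e2 := ip_norm3 (hn j2) d4 d5 d6 c12 a23 a24 (u j1)
  have e3 := ip_norm3 (hn j3) d7 d8 d9 c13 c23 a34 (u j1)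
  have e4 := ip_norm3 (hn j4) d10 d11 d12 c14 c24 c34 (u j1)
  rw [h.lu, if_pos rfl] at e1
  rw [h.lu, if_neg (Ne.symm h12), b12] at e2
  rw [h.lu, if_neg (Ne.symm h13), b13, b23] at e3
  rw [h.lu, if_neg (Ne.symm h14), b14, b24, b34] at e4
  generalize ℓ j1 p12 * u j1 p12 = t12 at *
  generalize ℓ j1 p13 * u j1 p13 = t13 at *
  generalize ℓ j1 p14 * u j1 p14 = t14 at *
  generalize ℓ j2 p23 * u j1 p23 = t23 at *
  generalize ℓ j2 p24 * u j1 p24 = t24 at *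
  generalize ℓ j3 p34 * u j1 p34 = t34 at *
  omega

end Cfsg.Agent.Lib.Helper14.CTI
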