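import Cfsg.Agent.Lib.Helper14.CTI.Defs2

set_option autoImplicit false

namespace Cfsg.Agent.Lib.Helper14.CTI

open Cfsg Cfsg.Agent.Lib.Helper32

universe u

variable {G : Type u} [Group G] {W₁ W₂ : Subgroup G}

/-- RUNG LR: every linear character of `W` is uniquely `φ * ψ` with `φ` trivial on `W₂`, `ψ` trivial on `W₁`. -/
theorem exists_lr (hd : W₁ ⊓ W₂ = ⊥) (hc : ∀ a ∈ W₁, ∀ b ∈ W₂, a * b = b * a) (ω : Lin W₁ W₂) :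
    ∃ φ ψ : Lin W₁ W₂, Tr2 φ ∧ Tr1 ψ ∧ ω = φ * ψ := by
  refine ⟨((ctiB hd hc).symm ω).1.comp (ctiP1 hd hc), ((ctiB hd hc).symm ω).2.comp (ctiP2 hd hc),
    ?_, ?_, ?_⟩
  · intro w hw
    exact cti_comp_P1_trivial hd hc _ w hw
  · intro w hw
    exact cti_comp_P2_trivial hd hc _ w hw
  · rw [← ctiB_apply, Equiv.apply_symm_apply]

/-- uniqueness (= `Helper32.cti_mul_eq_iff`) -/
theorem lr_unique (hc : ∀ a ∈ W₁, ∀ b ∈ W₂, a * b = b * a) {φ ψ φ' ψ' : Lin W₁ W₂} (h1 : Tr2 φ)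
    (h2 : Tr1 ψ) (h1' : Tr2 φ') (h2' : Tr1 ψ') : φ * ψ = φ' * ψ' ↔ φ = φ' ∧ ψ = ψ' :=
  cti_mul_eq_iff hc h1 h1' h2 h2'

end Cfsg.Agent.Lib.Helper14.CTI
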