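import Cfsg.Agent.Lib.Helper14.CTI.DEC
import Cfsg.Agent.Lib.Helper14.CTI.BETA
import Cfsg.Agent.Lib.Helper14.CTI.CARD
import Cfsg.Agent.Lib.Helper14.CTI.ETA
import Cfsg.Agent.Lib.Helper14.CTI.FIN

set_option autoImplicit false

namespace Cfsg.Agent.Lib.Helper14.CTI

open Cfsg

universe u

variable {G : Type u} [Group G] [Fintype G] {W₁ W₂ : Subgroup G}

theorem main (hW : IsSelfNormalizingCyclic W₁ W₂) (hodd : Odd (Nat.card ↥(W₁ ⊔ W₂))) :
    ∃ χ : (↥(W₁ ⊔ W₂) →* ℂˣ) → (G → ℂ), IsCyclicTIFamily W₁ W₂ χ := by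
  classical
  have := Cfsg.Agent.Lib.Helper20.finite_irrCharacter (G := G)
  have := Fintype.ofFinite (IrrCharacter G)
  have : Finite (Lin W₁ W₂) := inferInstance
  have := Fintype.ofFinite (II W₁ W₂)
  have := Fintype.ofFinite (JJ W₁ W₂)
  obtain ⟨β, hA, h0, hind⟩ := exists_beta (G := G) hW
  obtain ⟨c1, c2, c3⟩ := card_cond hW hodd
  obtain ⟨A, B, C, hd⟩ := exists_dec hA c1 c2 c3
  have hI : Nonempty (II W₁ W₂) := by
    rw [← Fintype.card_pos_iff]; omega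
  have hJ : Nonempty (JJ W₁ W₂) := by
    rw [← Fintype.card_pos_iff]; omega
  obtain ⟨η, hη⟩ := exists_eta hI hJ hd h0 hind
  exact fin hW hη

end Cfsg.Agent.Lib.Helper14.CTI
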