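import Cfsg.Agent.Lib.Helper14.CTI.Defs2

set_option autoImplicit false

namespace Cfsg.Agent.Lib.Helper14.CTI

open Cfsg Cfsg.Agent.Lib.Helper20 Cfsg.Agent.Lib.Helper32

universe u

variable {G : Type u} [Group G] [Fintype G] [Fintype (IrrCharacter G)]

/-! RUNG REAL: the dictionary coefficient vectors <-> virtual characters. -/

omit [Fintype G] in
theorem re_add (c d : IrrCharacter G → ℤ) : re (c + d) = re c + re d := by
  unfold re
  rw [← Finset.sum_add_distrib]
  apply Finset.sum_congr rfl
  intro χ _
  rw [Pi.add_apply, Int.cast_add, add_smul]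

omit [Fintype G] in
theorem re_neg (c : IrrCharacter G → ℤ) : re (-c) = -re c := by
  unfold re
  rw [← Finset.sum_neg_distrib]
  apply Finset.sum_congr rfl
  intro χ _
  rw [Pi.neg_apply, Int.cast_neg, neg_smul]

omit [Fintype G] in
theorem re_genChar (c : IrrCharacter G → ℤ) : IsGeneralizedCharacter G (re c) := by
  unfold re
  apply genChar_sum
  intro χ _
  exact genChar_intCast_smul (genChar_of_irr χ.2) (c χ)

theorem inner_re_irr (c : IrrCharacter G → ℤ) (χ : IrrCharacter G) :
    classInner (re c) (χ : G → ℂ) = (c χ : ℂ) := by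
  classical
  unfold re
  rw [classInner_sum_left, Finset.sum_eq_single χ]
  · rw [classInner_smul_left, classInner_irr_self χ.2, mul_one]
  · intro ψ _ hψ
    rw [classInner_smul_left, classInner_irr ψ.2 χ.2, if_neg (fun e => hψ (Subtype.ext e)),
      mul_zero]
  · intro h; exact absurd (Finset.mem_univ χ) h

theorem inner_re (c d : IrrCharacter G → ℤ) : classInner (re c) (re d) = ((ip c d : ℤ) : ℂ) := by
  conv_lhs => rhs; unfold re
  rw [classInner_sum_right]
  unfold ip
  push_cast
  apply Finset.sum_congr rfl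
  intro χ _
  rw [classInner_smul_right, inner_re_irr]
  simp [mul_comm]

theorem exists_re {θ : G → ℂ} (h : IsGeneralizedCharacter G θ) :
    ∃ c : IrrCharacter G → ℤ, re c = θ := by
  obtain ⟨a, ha⟩ := genChar_exists_coeff h
  exact ⟨a, (genChar_expand h ha).symm⟩

theorem re_signed {c : IrrCharacter G → ℤ} (h : ip c c = 1) :
    IsIrrCharacter G (re c) ∨ IsIrrCharacter G (-re c) := by
  apply genChar_norm_one (re_genChar c)
  rw [inner_re, h]
  simp

end Cfsg.Agent.Lib.Helper14.CTI
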