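import Cfsg.Agent.Lib.Helper14.CTI.T2
import Cfsg.Agent.Lib.Helper14.CTI.K4

set_option autoImplicit false

namespace Cfsg.Agent.Lib.Helper14.CTI

variable {X : Type*} [Fintype X]

/-- RUNG ROW: a row of length `≥ 4` is a sunflower.
PROOF. Pick `j1 ≠ j2`, `a` := their shared point. Let `j3 ∉ {j1,j2}` with `ℓ j3 a = 0`; pick `j4 ∉ {j1,j2,j3}`.
If `ℓ j4 a ≠ 0`: `t2` for `(j1,j2,j4;j3)`. Else let `b` = shared point of `j1,j3`, `d` = shared point of `j2,j3`.
`ℓ j2 b = 0` (else `b = a`), `ℓ j1 d = 0`. If `ℓ j4 b ≠ 0`: `t2` for `(j1,j3,j4;j2)` at `b`. If `ℓ j4 d ≠ 0`: `t2` for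
`(j2,j3,j4;j1)` at `d`. Else `k4` (a common point of `j1,j2` is `a`, of `j1,j3` is `b`, of `j2,j3` is `d`). -/
theorem row {J : Type*} [DecidableEq J] [Fintype J] {ℓ u : J → X → ℤ} (h : Two ℓ u)
    (hJ : 4 ≤ Fintype.card J) : ∃ r, ∀ j, ℓ j r ≠ 0 := by
  obtain ⟨j1, j2, h12⟩ := Fintype.one_lt_card_iff.1 (show 1 < Fintype.card J by omega)
  obtain ⟨a, a1, a2, ua⟩ := h.share h12
  have a2' : ℓ j2 a ≠ 0 := by rw [a2]; exact a1
  refine ⟨a, ?_⟩
  by_contra hcon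
  push Not at hcon
  obtain ⟨j3, a3⟩ := hcon
  have h13 : j1 ≠ j3 := by rintro rfl; exact a1 a3
  have h23 : j2 ≠ j3 := by rintro rfl; exact a2' a3
  obtain ⟨j4, hj4⟩ : ∃ j4, j4 ∉ ({j1, j2, j3} : Finset J) := by
    by_contra hall
    push Not at hall
    have h1 : (Finset.univ : Finset J) ⊆ {j1, j2, j3} := fun j _ => hall j
    have h2 := Finset.card_le_card h1
    have h3 : ({j1, j2, j3} : Finset J).card ≤ 3 := Finset.card_le_three
    rw [Finset.card_univ] at h2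
    omega
  simp only [Finset.mem_insert, Finset.mem_singleton, not_or] at hj4
  obtain ⟨h41, h42, h43⟩ := hj4
  by_cases a4 : ℓ j4 a = 0
  · obtain ⟨b, b1, b3, ub⟩ := h.share h13
    obtain ⟨d, d2, d3, ud⟩ := h.share h23
    have b3' : ℓ j3 b ≠ 0 := by rw [b3]; exact b1
    have d3' : ℓ j3 d ≠ 0 := by rw [d3]; exact d2
    have b2 : ℓ j2 b = 0 := by
      by_contra hb
      have := ua b b1 hb
      rw [this] at b3'
      exact b3' a3
    have d1 : ℓ j1 d = 0 := by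
      by_contra hd
      have := ua d hd d2
      rw [this] at d3'
      exact d3' a3
    by_cases b4 : ℓ j4 b = 0
    · by_cases d4 : ℓ j4 d = 0
      · refine k4 h h12 h13 (Ne.symm h41) h23 (Ne.symm h42) (Ne.symm h43) ?_ ?_ ?_ ?_
        · intro x x1 x2; rw [ua x x1 x2]; exact a3
        · intro x x1 x2; rw [ua x x1 x2]; exact a4
        · intro x x1 x3; rw [ub x x1 x3]; exact b4
        · intro x x2 x3; rw [ud x x2 x3]; exact d4
      · exact t2 h h23 (Ne.symm h42) (Ne.symm h12) (Ne.symm h43) (Ne.symm h13) h41 d2 d3' d4 d1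
    · exact t2 h h13 (Ne.symm h41) h12 (Ne.symm h43) (Ne.symm h23) h42 b1 b3' b4 b2
  · exact t2 h h12 (Ne.symm h41) h13 (Ne.symm h42) h23 h43 a1 a2' a4 a3

end Cfsg.Agent.Lib.Helper14.CTI
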