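import Cfsg.Agent.Lib.Helper14.CTI.BAS

set_option autoImplicit false

namespace Cfsg.Agent.Lib.Helper14.CTI

variable {X : Type*} [Fintype X]

/-- RUNG SH. Two vectors `u v` of norm 3 with `(u,v) = 1`, separated mod 2 by a third vector `w`, share exactly
one point of their supports, and take the same value there.
PROOF. `d = u - v` has norm `3 + 3 - 2 = 4`. If `u y = - v y ≠ 0` for some `y` then `d y = ± 2`, `(d y)^2 = 4`,
so `d` vanishes off `y` and `ip w d = w y * d y` is even; but `ip w d = 1 - 0`. So (values are `0, ± 1`,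
`val_of_norm3`) at every common point of the supports `u y = v y`, `u y * v y = 1`, and
`1 = ip u v = #(common points)`. -/
theorem share {u v w : X → ℤ} (hu : ip u u = 3) (hv : ip v v = 3) (huv : ip u v = 1)
    (hwu : ip w u = 1) (hwv : ip w v = 0) :
    ∃ x, u x ≠ 0 ∧ v x = u x ∧ ∀ y, u y ≠ 0 → v y ≠ 0 → y = x := by
  classical
  have hdd : ip (u - v) (u - v) = 4 := by
    rw [ip_sub_left, ip_sub_right, ip_sub_right, hu, hv, huv, ip_comm v u, huv]; norm_num
  have hwd : ip w (u - v) = 1 := by rw [ip_sub_right, hwu, hwv]; norm_num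
  have hno : ∀ y, u y * v y ≠ -1 := by
    intro y hy
    have hdy : (u - v) y * (u - v) y = 4 := by
      rw [Pi.sub_apply]
      rcases val_of_norm3 hu y with h2 | h2 | h2 <;> rcases val_of_norm3 hv y with h3 | h3 | h3 <;>
        rw [h2, h3] at hy ⊢ <;> omega
    have hz : ∀ z, z ≠ y → (u - v) z = 0 := by
      intro z hzy
      have h1 : ∑ x ∈ ({z, y} : Finset X), (u - v) x * (u - v) x ≤ ip (u - v) (u - v) := by
        unfold ip
        exact Finset.sum_le_univ_sum_of_nonneg fun x => mul_self_nonneg _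
      rw [Finset.sum_insert (by simp [hzy]), Finset.sum_singleton, hdd, hdy] at h1
      have h2 : (u - v) z * (u - v) z ≤ 0 := by omega
      have h3 := mul_self_nonneg ((u - v) z)
      exact mul_self_eq_zero.1 (le_antisymm h2 h3)
    have h4 : ip w (u - v) = w y * (u - v) y := by
      unfold ip
      rw [Finset.sum_eq_single y]
      · intro z _ hzy; rw [hz z hzy, mul_zero]
      · intro h; exact absurd (Finset.mem_univ y) h
    rw [hwd] at h4
    have h5 : (u - v) y = 2 ∨ (u - v) y = -2 := by
      have h6 : ((u - v) y - 2) * ((u - v) y + 2) = 0 := by linarith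
      rcases mul_eq_zero.1 h6 with h | h
      · left; omega
      · right; omega
    rcases h5 with h5 | h5 <;> rw [h5] at h4 <;> omega
  have hterm : ∀ y, u y * v y = 0 ∨ u y * v y = 1 := by
    intro y
    have := hno y
    rcases val_of_norm3 hu y with h2 | h2 | h2 <;> rcases val_of_norm3 hv y with h3 | h3 | h3 <;>
      rw [h2, h3] at this ⊢ <;> omega
  have hnn : ∀ y, 0 ≤ u y * v y := fun y => by rcases hterm y with h | h <;> omega
  have hex : ∃ x, u x * v x ≠ 0 := by
    by_contra hcon
    push Not at hcon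
    have : ip u v = 0 := by
      unfold ip
      exact Finset.sum_eq_zero fun x _ => hcon x
    omega
  obtain ⟨x, hx⟩ := hex
  have hx1 : u x * v x = 1 := by rcases hterm x with h | h; exact absurd h hx; exact h
  refine ⟨x, left_ne_zero_of_mul hx, ?_, ?_⟩
  · rcases val_of_norm3 hu x with h2 | h2 | h2 <;> rcases val_of_norm3 hv x with h3 | h3 | h3 <;>
      rw [h2, h3] at hx1 ⊢ <;> omega
  · intro y hy1 hy2
    by_contra hyx
    have hy : u y * v y = 1 := by
      rcases hterm y with h | h
      · exact absurd h (mul_ne_zero hy1 hy2)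
      · exact h
    have h1 : ∑ z ∈ ({y, x} : Finset X), u z * v z ≤ ip u v := by
      unfold ip
      exact Finset.sum_le_univ_sum_of_nonneg hnn
    rw [Finset.sum_insert (by simp [hyx]), Finset.sum_singleton, huv, hx1, hy] at h1
    omega

/-- `share` inside the first row (`w = u j`). -/
theorem Two.share {J : Type*} [DecidableEq J] {ℓ u : J → X → ℤ} (h : Two ℓ u) {j l : J}
    (hjl : j ≠ l) : ∃ x, ℓ j x ≠ 0 ∧ ℓ l x = ℓ j x ∧ ∀ y, ℓ j y ≠ 0 → ℓ l y ≠ 0 → y = x := by
  apply Cfsg.Agent.Lib.Helper14.CTI.share (w := u j)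
  · rw [h.ll, if_pos rfl]
  · rw [h.ll, if_pos rfl]
  · rw [h.ll, if_neg hjl]
  · rw [ip_comm, h.lu, if_pos rfl]
  · rw [ip_comm, h.lu, if_neg (Ne.symm hjl)]

/-- the two rows may be exchanged -/
theorem Two.symm {J : Type*} [DecidableEq J] {ℓ u : J → X → ℤ} (h : Two ℓ u) : Two u ℓ := by
  refine ⟨h.uu, h.ll, fun j l => ?_⟩
  rw [ip_comm, h.lu]
  by_cases hjl : j = l
  · rw [if_pos hjl, if_pos hjl.symm]
  · rw [if_neg hjl, if_neg (Ne.symm hjl)]

/-- two different rows of an array -/
theorem Arr.two {I J : Type*} [DecidableEq I] [DecidableEq J] {β : I → J → X → ℤ} (h : Arr β)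
    {i k : I} (hik : i ≠ k) : Two (β i) (β k) := by
  refine ⟨fun j l => ?_, fun j l => ?_, fun j l => ?_⟩
  · rw [h]; by_cases hjl : j = l <;> simp [hjl]
  · rw [h]; by_cases hjl : j = l <;> simp [hjl]
  · rw [h]; by_cases hjl : j = l <;> simp [hjl, hik]

/-- transposition -/
theorem Arr.transpose {I J : Type*} [DecidableEq I] [DecidableEq J] {β : I → J → X → ℤ}
    (h : Arr β) : Arr (fun j i => β i j) := by
  intro j i l k
  show ip (β i j) (β k l) = _
  rw [h]
  by_cases hjl : j = l <;> by_cases hik : i = k <;> simp [hjl, hik]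

theorem Dec.transpose {I J : Type*} [DecidableEq I] [DecidableEq J] {β : I → J → X → ℤ}
    {A : J → X → ℤ} {B : I → X → ℤ} {C : J → I → X → ℤ} (h : Dec (fun j i => β i j) A B C) :
    Dec β B A (fun i j => C j i) := by
  refine ⟨fun i j => ?_, h.BB, h.AA, fun i j k l => ?_, fun i j => ?_, fun i k l => h.BC i l k,
    fun j k l => h.AC j l k⟩
  · have : β i j = A j + B i + C j i := h.eq j i
    rw [this, add_comm (A j) (B i)]
  · show ip (C j i) (C l k) = _
    rw [h.CC]
    by_cases hjl : j = l <;> by_cases hik : i = k <;> simp [hjl, hik]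
  · rw [ip_comm]; exact h.AB j i

end Cfsg.Agent.Lib.Helper14.CTI
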