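import Mathlib

set_option autoImplicit false

namespace Cfsg.Agent.Lib.Helper14.CTI

private theorem t2i_bd {x s : ℤ} (hs : 0 ≤ s) (h : x ^ 2 + s ≤ 3) : -1 ≤ x ∧ x ≤ 1 := by
  constructor <;> nlinarith

private theorem t2i_bds {x0 x1 x2 x3 x4 x5 x6 : ℤ}
    (hn : x0 ^ 2 + x1 ^ 2 + x2 ^ 2 + x3 ^ 2 + x4 ^ 2 + x5 ^ 2 + x6 ^ 2 ≤ 3) :
    (-1 ≤ x0 ∧ x0 ≤ 1) ∧ (-1 ≤ x1 ∧ x1 ≤ 1) ∧ (-1 ≤ x3 ∧ x3 ≤ 1) := by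
  refine ⟨t2i_bd (s := x1 ^ 2 + x2 ^ 2 + x3 ^ 2 + x4 ^ 2 + x5 ^ 2 + x6 ^ 2) (by positivity)
      (by linarith),
    t2i_bd (s := x0 ^ 2 + x2 ^ 2 + x3 ^ 2 + x4 ^ 2 + x5 ^ 2 + x6 ^ 2) (by positivity)
      (by linarith),
    t2i_bd (s := x0 ^ 2 + x1 ^ 2 + x2 ^ 2 + x4 ^ 2 + x5 ^ 2 + x6 ^ 2) (by positivity)
      (by linarith)⟩

private theorem t2i_s0 {x0 x1 x2 x3 x4 x5 x6 : ℤ}
    (hn : x0 ^ 2 + x1 ^ 2 + x2 ^ 2 + x3 ^ 2 + x4 ^ 2 + x5 ^ 2 + x6 ^ 2 ≤ 3)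
    (l1 : x0 + x1 + x2 = 1) (l2 : x0 + x3 + x4 = 0) (l3 : x0 + x5 + x6 = 0)
    (l4 : x1 + x3 + x5 = 0) :
    (x0 = 0 ∧ x1 = 0 ∧ x2 = 1 ∧ x3 = 0 ∧ x4 = 0 ∧ x5 = 0 ∧ x6 = 0) ∨
    (x0 = 0 ∧ x1 = 1 ∧ x2 = 0 ∧ x3 = -1 ∧ x4 = 1 ∧ x5 = 0 ∧ x6 = 0) ∨
    (x0 = 0 ∧ x1 = 1 ∧ x2 = 0 ∧ x3 = 0 ∧ x4 = 0 ∧ x5 = -1 ∧ x6 = 1) ∨
    (x0 = 1 ∧ x1 = 0 ∧ x2 = 0 ∧ x3 = 0 ∧ x4 = -1 ∧ x5 = 0 ∧ x6 = -1) := by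
  obtain ⟨⟨a1, a2⟩, ⟨b1, b2⟩, ⟨c1, c2⟩⟩ := t2i_bds hn
  obtain rfl : x2 = 1 - x0 - x1 := by omega
  obtain rfl : x4 = 0 - x0 - x3 := by omega
  obtain rfl : x5 = 0 - x1 - x3 := by omega
  obtain rfl : x6 = 0 - x0 - (0 - x1 - x3) := by omega
  interval_cases x0 <;> interval_cases x1 <;> interval_cases x3 <;>
    first | (exfalso; norm_num at hn; done) | norm_num

private theorem t2i_s1 {x0 x1 x2 x3 x4 x5 x6 : ℤ}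
    (hn : x0 ^ 2 + x1 ^ 2 + x2 ^ 2 + x3 ^ 2 + x4 ^ 2 + x5 ^ 2 + x6 ^ 2 ≤ 3)
    (l1 : x0 + x1 + x2 = 0) (l2 : x0 + x3 + x4 = 1) (l3 : x0 + x5 + x6 = 0)
    (l4 : x1 + x3 + x5 = 0) :
    (x0 = 0 ∧ x1 = 0 ∧ x2 = 0 ∧ x3 = 0 ∧ x4 = 1 ∧ x5 = 0 ∧ x6 = 0) ∨
    (x0 = 0 ∧ x1 = -1 ∧ x2 = 1 ∧ x3 = 1 ∧ x4 = 0 ∧ x5 = 0 ∧ x6 = 0) ∨
    (x0 = 0 ∧ x1 = 0 ∧ x2 = 0 ∧ x3 = 1 ∧ x4 = 0 ∧ x5 = -1 ∧ x6 = 1) ∨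
    (x0 = 1 ∧ x1 = 0 ∧ x2 = -1 ∧ x3 = 0 ∧ x4 = 0 ∧ x5 = 0 ∧ x6 = -1) := by
  obtain ⟨⟨a1, a2⟩, ⟨b1, b2⟩, ⟨c1, c2⟩⟩ := t2i_bds hn
  obtain rfl : x2 = 0 - x0 - x1 := by omega
  obtain rfl : x4 = 1 - x0 - x3 := by omega
  obtain rfl : x5 = 0 - x1 - x3 := by omega
  obtain rfl : x6 = 0 - x0 - (0 - x1 - x3) := by omega
  interval_cases x0 <;> interval_cases x1 <;> interval_cases x3 <;>
    first | (exfalso; norm_num at hn; done) | norm_num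

private theorem t2i_s2 {x0 x1 x2 x3 x4 x5 x6 : ℤ}
    (hn : x0 ^ 2 + x1 ^ 2 + x2 ^ 2 + x3 ^ 2 + x4 ^ 2 + x5 ^ 2 + x6 ^ 2 ≤ 3)
    (l1 : x0 + x1 + x2 = 0) (l2 : x0 + x3 + x4 = 0) (l3 : x0 + x5 + x6 = 1)
    (l4 : x1 + x3 + x5 = 0) :
    (x0 = 0 ∧ x1 = 0 ∧ x2 = 0 ∧ x3 = 0 ∧ x4 = 0 ∧ x5 = 0 ∧ x6 = 1) ∨
    (x0 = 0 ∧ x1 = -1 ∧ x2 = 1 ∧ x3 = 0 ∧ x4 = 0 ∧ x5 = 1 ∧ x6 = 0) ∨
    (x0 = 0 ∧ x1 = 0 ∧ x2 = 0 ∧ x3 = -1 ∧ x4 = 1 ∧ x5 = 1 ∧ x6 = 0) ∨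
    (x0 = 1 ∧ x1 = 0 ∧ x2 = -1 ∧ x3 = 0 ∧ x4 = -1 ∧ x5 = 0 ∧ x6 = 0) := by
  obtain ⟨⟨a1, a2⟩, ⟨b1, b2⟩, ⟨c1, c2⟩⟩ := t2i_bds hn
  obtain rfl : x2 = 0 - x0 - x1 := by omega
  obtain rfl : x4 = 0 - x0 - x3 := by omega
  obtain rfl : x5 = 0 - x1 - x3 := by omega
  obtain rfl : x6 = 1 - x0 - (0 - x1 - x3) := by omega
  interval_cases x0 <;> interval_cases x1 <;> interval_cases x3 <;>
    first | (exfalso; norm_num at hn; done) | norm_num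

private theorem t2i_s3 {x0 x1 x2 x3 x4 x5 x6 : ℤ}
    (hn : x0 ^ 2 + x1 ^ 2 + x2 ^ 2 + x3 ^ 2 + x4 ^ 2 + x5 ^ 2 + x6 ^ 2 ≤ 3)
    (l1 : x0 + x1 + x2 = 0) (l2 : x0 + x3 + x4 = 0) (l3 : x0 + x5 + x6 = 0)
    (l4 : x1 + x3 + x5 = 1) :
    (x0 = 0 ∧ x1 = 1 ∧ x2 = -1 ∧ x3 = 0 ∧ x4 = 0 ∧ x5 = 0 ∧ x6 = 0) ∨
    (x0 = 0 ∧ x1 = 0 ∧ x2 = 0 ∧ x3 = 1 ∧ x4 = -1 ∧ x5 = 0 ∧ x6 = 0) ∨
    (x0 = 0 ∧ x1 = 0 ∧ x2 = 0 ∧ x3 = 0 ∧ x4 = 0 ∧ x5 = 1 ∧ x6 = -1) := by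
  obtain ⟨⟨a1, a2⟩, ⟨b1, b2⟩, ⟨c1, c2⟩⟩ := t2i_bds hn
  obtain rfl : x2 = 0 - x0 - x1 := by omega
  obtain rfl : x4 = 0 - x0 - x3 := by omega
  obtain rfl : x5 = 1 - x1 - x3 := by omega
  obtain rfl : x6 = 0 - x0 - (1 - x1 - x3) := by omega
  interval_cases x0 <;> interval_cases x1 <;> interval_cases x3 <;>
    first | (exfalso; norm_num at hn; done) | norm_num

/-- RUNG T2I (pure integers; checked by brute force in python: infeasible).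
Points `0..6 = a b c d e f y`; lines `abc`, `ade`, `afy`, `bdf`.
From `hn` all `v j k ∈ {-1,0,1}` and at most three are nonzero. The linear equations leave exactly:
`v 0 ∈ {c, b-d+e, b-f+y, a-e-y}`, `v 1 ∈ {e, d-b+c, d-f+y, a-c-y}`, `v 2 ∈ {y, f-b+c, f-d+e, a-c-e}`,
`v 3 ∈ {b-c, d-e, f-y}` (stage 1: e.g. `decide` over 7 nested `Fin 3`, or `interval_cases`/`omega`);
none of the `4*4*4*3` combinations satisfies all six inequalities `hO` (stage 2: numerals). -/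
theorem t2i (v : Fin 4 → Fin 7 → ℤ)
    (hn : ∀ j, ∑ k, v j k ^ 2 ≤ 3)
    (hl1 : ∀ j, v j 0 + v j 1 + v j 2 = if j = 0 then 1 else 0)
    (hl2 : ∀ j, v j 0 + v j 3 + v j 4 = if j = 1 then 1 else 0)
    (hl3 : ∀ j, v j 0 + v j 5 + v j 6 = if j = 2 then 1 else 0)
    (hl4 : ∀ j, v j 1 + v j 3 + v j 5 = if j = 3 then 1 else 0)
    (hO : ∀ j l, j ≠ l →
      (1 - ∑ k, v j k * v l k) ^ 2 ≤ (3 - ∑ k, v j k ^ 2) * (3 - ∑ k, v l k ^ 2)) : False := by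
  simp only [Fin.sum_univ_seven] at hn hO
  have H0 := t2i_s0 (hn 0) ((hl1 0).trans (if_pos rfl)) ((hl2 0).trans (if_neg (by decide)))
    ((hl3 0).trans (if_neg (by decide))) ((hl4 0).trans (if_neg (by decide)))
  have H1 := t2i_s1 (hn 1) ((hl1 1).trans (if_neg (by decide))) ((hl2 1).trans (if_pos rfl))
    ((hl3 1).trans (if_neg (by decide))) ((hl4 1).trans (if_neg (by decide)))
  have H2 := t2i_s2 (hn 2) ((hl1 2).trans (if_neg (by decide))) ((hl2 2).trans (if_neg (by decide)))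
    ((hl3 2).trans (if_pos rfl)) ((hl4 2).trans (if_neg (by decide)))
  have H3 := t2i_s3 (hn 3) ((hl1 3).trans (if_neg (by decide))) ((hl2 3).trans (if_neg (by decide)))
    ((hl3 3).trans (if_neg (by decide))) ((hl4 3).trans (if_pos rfl))
  have h01 := hO 0 1 (by decide)
  have h02 := hO 0 2 (by decide)
  have h03 := hO 0 3 (by decide)
  have h12 := hO 1 2 (by decide)
  have h13 := hO 1 3 (by decide)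
  have h23 := hO 2 3 (by decide)
  clear hO hn hl1 hl2 hl3 hl4
  rcases H0 with ⟨a0, a1, a2, a3, a4, a5, a6⟩ | ⟨a0, a1, a2, a3, a4, a5, a6⟩ |
      ⟨a0, a1, a2, a3, a4, a5, a6⟩ | ⟨a0, a1, a2, a3, a4, a5, a6⟩ <;>
    rw [a0, a1, a2, a3, a4, a5, a6] at h01 h02 h03 <;>
    rcases H1 with ⟨b0, b1, b2, b3, b4, b5, b6⟩ | ⟨b0, b1, b2, b3, b4, b5, b6⟩ |
      ⟨b0, b1, b2, b3, b4, b5, b6⟩ | ⟨b0, b1, b2, b3, b4, b5, b6⟩ <;>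
    rw [b0, b1, b2, b3, b4, b5, b6] at h01 h12 h13 <;>
    (try (exfalso; norm_num at h01; done)) <;>
    rcases H2 with ⟨c0, c1, c2, c3, c4, c5, c6⟩ | ⟨c0, c1, c2, c3, c4, c5, c6⟩ |
      ⟨c0, c1, c2, c3, c4, c5, c6⟩ | ⟨c0, c1, c2, c3, c4, c5, c6⟩ <;>
    rw [c0, c1, c2, c3, c4, c5, c6] at h02 h12 h23 <;>
    (try (exfalso; norm_num at h02; done)) <;>
    (try (exfalso; norm_num at h12; done)) <;>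
    rcases H3 with ⟨d0, d1, d2, d3, d4, d5, d6⟩ | ⟨d0, d1, d2, d3, d4, d5, d6⟩ |
      ⟨d0, d1, d2, d3, d4, d5, d6⟩ <;>
    rw [d0, d1, d2, d3, d4, d5, d6] at h03 h13 h23 <;>
    (try (exfalso; norm_num at h03; done)) <;>
    (try (exfalso; norm_num at h13; done)) <;>
    (try (exfalso; norm_num at h23; done))

end Cfsg.Agent.Lib.Helper14.CTI
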