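import Cfsg.Agent.Lib.Helper14.CTI.BAS
import Cfsg.Agent.Lib.Helper14.CTI.T2I

set_option autoImplicit false

namespace Cfsg.Agent.Lib.Helper14.CTI

variable {X : Type*} [Fintype X]

/-- RUNG T2R: reduction of the configuration "three concurrent lines + a transversal" to `t2i`.
PROOF. `v j k := σ k * u j (pt k)`. `σ k ^ 2 = 1`. With `S = image pt univ` (`pt` injective):
`∑ k, v j k ^ 2 = ∑ x ∈ S, u j x ^ 2 ≤ ip (u j) (u j) = 3`, `3 - ∑ k, v j k ^ 2 = ∑ x ∉ S, u j x ^ 2`,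
`1 - ∑ k, v j k * v l k = ∑ x ∉ S, u j x * u l x`, and `hO` is Cauchy-Schwarz on `Sᶜ`
(`Finset.sum_mul_sq_le_sq_mul_sq`). `hl1..hl4` are `h1..h4`. -/
theorem t2r (u : Fin 4 → X → ℤ) (huu : ∀ j l, ip (u j) (u l) = if j = l then 3 else 1)
    (pt : Fin 7 → X) (hpt : Function.Injective pt) (σ : Fin 7 → ℤ) (hσ : ∀ k, σ k = 1 ∨ σ k = -1)
    (h1 : ∀ j, σ 0 * u j (pt 0) + σ 1 * u j (pt 1) + σ 2 * u j (pt 2) = if j = 0 then 1 else 0)
    (h2 : ∀ j, σ 0 * u j (pt 0) + σ 3 * u j (pt 3) + σ 4 * u j (pt 4) = if j = 1 then 1 else 0)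
    (h3 : ∀ j, σ 0 * u j (pt 0) + σ 5 * u j (pt 5) + σ 6 * u j (pt 6) = if j = 2 then 1 else 0)
    (h4 : ∀ j, σ 1 * u j (pt 1) + σ 3 * u j (pt 3) + σ 5 * u j (pt 5) = if j = 3 then 1 else 0) :
    False := by
  classical
  set S : Finset X := Finset.univ.image pt with hS
  have key : ∀ j l, ∑ k, (σ k * u j (pt k)) * (σ k * u l (pt k)) =
      ip (u j) (u l) - ∑ x ∈ Sᶜ, u j x * u l x := by
    intro j l
    have e1 : ∑ k, (σ k * u j (pt k)) * (σ k * u l (pt k)) = ∑ k, u j (pt k) * u l (pt k) := by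
      apply Finset.sum_congr rfl
      intro k _
      have : σ k * σ k = 1 := by rcases hσ k with h | h <;> rw [h] <;> norm_num
      calc (σ k * u j (pt k)) * (σ k * u l (pt k))
          = (σ k * σ k) * (u j (pt k) * u l (pt k)) := by ring
        _ = _ := by rw [this, one_mul]
    have e2 : ∑ x ∈ S, u j x * u l x = ∑ k, u j (pt k) * u l (pt k) :=
      Finset.sum_image (fun a _ b _ h => hpt h)
    have e3 : ip (u j) (u l) = ∑ x ∈ S, u j x * u l x + ∑ x ∈ Sᶜ, u j x * u l x :=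
      (Finset.sum_add_sum_compl S _).symm
    rw [e1, ← e2, e3]; ring
  have e : ∀ j, ∑ k, (σ k * u j (pt k)) ^ 2 = 3 - ∑ x ∈ Sᶜ, u j x ^ 2 := by
    intro j
    have := key j j
    simp only [← sq] at this
    rw [this, huu, if_pos rfl]
  refine t2i (fun j k => σ k * u j (pt k)) ?_ h1 h2 h3 h4 ?_
  · intro j
    show ∑ k, (σ k * u j (pt k)) ^ 2 ≤ 3
    rw [e j]
    have : 0 ≤ ∑ x ∈ Sᶜ, u j x ^ 2 := Finset.sum_nonneg fun x _ => sq_nonneg _
    omega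
  · intro j l hjl
    show (1 - ∑ k, (σ k * u j (pt k)) * (σ k * u l (pt k))) ^ 2 ≤
      (3 - ∑ k, (σ k * u j (pt k)) ^ 2) * (3 - ∑ k, (σ k * u l (pt k)) ^ 2)
    rw [key j l, e j, e l, huu, if_neg hjl, sub_sub_cancel, sub_sub_cancel, sub_sub_cancel]
    exact Finset.sum_mul_sq_le_sq_mul_sq Sᶜ (u j) (u l)

end Cfsg.Agent.Lib.Helper14.CTI
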