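import Cfsg.Agent.Lib.Helper14.CTI.T2C
import Cfsg.Agent.Lib.Helper14.CTI.T2R

set_option autoImplicit false

namespace Cfsg.Agent.Lib.Helper14.CTI

variable {X : Type*} [Fintype X]

/-- three lines of the first row through `a` and a fourth one missing `a`: impossible. -/
theorem t2 {J : Type*} [DecidableEq J] {ℓ u : J → X → ℤ} (h : Two ℓ u) {j1 j2 j3 j4 : J}
    (h12 : j1 ≠ j2) (h13 : j1 ≠ j3) (h14 : j1 ≠ j4) (h23 : j2 ≠ j3) (h24 : j2 ≠ j4) (h34 : j3 ≠ j4)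
    {a : X} (h1 : ℓ j1 a ≠ 0) (h2 : ℓ j2 a ≠ 0) (h3 : ℓ j3 a ≠ 0) (h4 : ℓ j4 a = 0) : False := by
  obtain ⟨pt, σ, hpt, hσ, e1, e2, e3, e4⟩ := t2c h h12 h13 h14 h23 h24 h34 h1 h2 h3 h4
  refine t2r (fun j => u (![j1, j2, j3, j4] j)) ?_ pt hpt σ hσ ?_ ?_ ?_ ?_
  · intro j l
    rw [h.uu]
    fin_cases j <;> fin_cases l <;>
      simp [h12, h13, h14, h23, h24, h34, h12.symm, h13.symm, h14.symm, h23.symm, h24.symm, h34.symm]
  · intro j
    rw [← e1, h.lu]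
    fin_cases j <;> simp [h12, h13, h14]
  · intro j
    rw [← e2, h.lu]
    fin_cases j <;> simp [h12.symm, h23, h24]
  · intro j
    rw [← e3, h.lu]
    fin_cases j <;> simp [h13.symm, h23.symm, h34]
  · intro j
    rw [← e4, h.lu]
    fin_cases j <;> simp [h14.symm, h24.symm, h34.symm]

end Cfsg.Agent.Lib.Helper14.CTI
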